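import Cfsg.Agent.H27.Sp
import Cfsg.Agent.H27.Hyp
import Cfsg.Agent.H27.TvBasic

/-!
Counting lemmas for stabilisers in classical groups.
-/

set_option autoImplicit false

namespace Cfsg.Agent.H27

open Matrix Module

theorem card_eq_of_fibres {G X : Type*} [Group G] (H S : Subgroup G) (hS : S ≤ H) (f : G → X)
    (hf : ∀ g g', f g = f g' ↔ g⁻¹ * g' ∈ S) :
    Nat.card H = Nat.card (f '' (H : Set G)) * Nat.card S := by
  rw [Subgroup.card_eq_card_quotient_mul_card_subgroup (S.subgroupOf H),
    Nat.card_congr (Subgroup.subgroupOfEquivOfLe hS).toEquiv]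
  congr 1
  refine Nat.card_congr (Equiv.ofBijective
    (Quotient.lift (fun h : H => (⟨f h, h, h.2, rfl⟩ : f '' (H : Set G))) ?_) ⟨?_, ?_⟩)
  · intro a b hab
    apply Subtype.ext
    exact (hf _ _).2 (QuotientGroup.leftRel_apply (s := S.subgroupOf H) |>.1 hab)
  · intro a b
    induction a using Quotient.inductionOn
    induction b using Quotient.inductionOn
    intro hab
    exact Quotient.sound (QuotientGroup.leftRel_apply.2 ((hf _ _).1 (congrArg Subtype.val hab)))
  · rintro ⟨_, h, hh, rfl⟩
    exact ⟨Quotient.mk _ ⟨h, hh⟩, rfl⟩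

/-- Orbit counting for a family of vectors. -/
theorem card_mul_orbit {G : Type*} [Group G] {ι : Type} [Fintype ι] [DecidableEq ι] {F : Type*}
    [CommRing F] (ρ : G →* Matrix ι ι F) {κ : Type*} (x : κ → ι → F) (H : Subgroup G)
    (hH : ∀ g, (∀ k, ρ g *ᵥ x k = x k) → g ∈ H) :
    Nat.card H * Nat.card {y : κ → ι → F // ∃ g, ∀ k, ρ g *ᵥ x k = y k} =
      Nat.card G * Nat.card {y : κ → ι → F // ∃ g ∈ H, ∀ k, ρ g *ᵥ x k = y k} := by
  let S : Subgroup G :=
    { carrier := {g | ∀ k, ρ g *ᵥ x k = x k}
      mul_mem' := fun {a b} ha hb k => by rw [map_mul, ← mulVec_mulVec, hb k, ha k]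
      one_mem' := fun k => by simp
      inv_mem' := fun {a} ha k => by
        conv_lhs => rw [← ha k]
        rw [mulVec_mulVec, ← map_mul, inv_mul_cancel, map_one, one_mulVec] }
  have hf : ∀ g g' : G, (fun k => ρ g *ᵥ x k) = (fun k => ρ g' *ᵥ x k) ↔ g⁻¹ * g' ∈ S := by
    intro g g'
    constructor
    · intro h k
      rw [map_mul, ← mulVec_mulVec, ← congrFun h k, mulVec_mulVec, ← map_mul, inv_mul_cancel,
        map_one, one_mulVec]
    · intro h
      funext k
      conv_lhs => rw [← h k]
      rw [mulVec_mulVec, ← map_mul, mul_inv_cancel_left]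
  have h1 := card_eq_of_fibres H S (fun g hg => hH g hg) _ hf
  have h2 := card_eq_of_fibres ⊤ S le_top _ hf
  rw [Subgroup.card_top] at h2
  have e1 : Nat.card {y : κ → ι → F // ∃ g, ∀ k, ρ g *ᵥ x k = y k} =
      Nat.card ((fun g k => ρ g *ᵥ x k) '' ((⊤ : Subgroup G) : Set G)) := by
    refine Nat.card_congr (Equiv.subtypeEquivRight fun y => ?_)
    constructor
    · rintro ⟨g, hg⟩; exact ⟨g, trivial, funext hg⟩
    · rintro ⟨g, -, rfl⟩; exact ⟨g, fun _ => rfl⟩
  have e2 : Nat.card {y : κ → ι → F // ∃ g ∈ H, ∀ k, ρ g *ᵥ x k = y k} =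
      Nat.card ((fun g k => ρ g *ᵥ x k) '' (H : Set G)) := by
    refine Nat.card_congr (Equiv.subtypeEquivRight fun y => ?_)
    constructor
    · rintro ⟨g, h, hg⟩; exact ⟨g, h, funext hg⟩
    · rintro ⟨g, h, rfl⟩; exact ⟨g, h, fun _ => rfl⟩
  rw [e1, e2, h1, h2]
  ring

/-- Membership in `stabilizing` follows from mapping the subspace into itself. -/
theorem mem_stabilizing_of_mapsTo {G : Type*} [Group G] {ι : Type} [Fintype ι] [DecidableEq ι]
    {F : Type*} [Field F] (ρ : G →* Matrix ι ι F) (W : Submodule F (ι → F)) {g : G}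
    (h : ∀ v ∈ W, ρ g *ᵥ v ∈ W) : g ∈ Cfsg.stabilizing ρ (W : Set (ι → F)) :=
  mem_stab_of_mapsTo (W := W) (g := toLE ι F (ρ.toHomUnits g)) h

theorem mem_stabilizing_of_span {G : Type*} [Group G] {ι : Type} [Fintype ι] [DecidableEq ι]
    {F : Type*} [Field F] (ρ : G →* Matrix ι ι F) {W : Submodule F (ι → F)} {κ : Type*}
    {x : κ → ι → F} (hW : W ≤ Submodule.span F (Set.range x)) {g : G}
    (h : ∀ k, ρ g *ᵥ x k ∈ W) : g ∈ Cfsg.stabilizing ρ (W : Set (ι → F)) := by
  apply mem_stabilizing_of_mapsTo
  have : Submodule.span F (Set.range x) ≤ W.comap (Matrix.toLin' (ρ g)) := by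
    rw [Submodule.span_le]
    rintro _ ⟨i, rfl⟩
    exact h i
  exact fun v hv => this (hW hv)

theorem li_of_rep {G : Type*} [Group G] {ι : Type} [Fintype ι] [DecidableEq ι]
    {F : Type*} [Field F] (ρ : G →* Matrix ι ι F) {κ : Type*} {x y : κ → ι → F}
    (hx : LinearIndependent F x) {g : G} (h : ∀ k, ρ g *ᵥ x k = y k) : LinearIndependent F y := by
  have e : y = (toLE ι F (ρ.toHomUnits g)).toLinearMap ∘ x := funext fun i => (h i).symm
  rw [e]
  exact hx.map' _ (LinearEquiv.ker _)

/-- Lower triangular arrays with non-zero diagonal. -/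
def Tri (n : ℕ) (F : Type*) [Zero F] : Type _ :=
  {M : Fin n → Fin n → F // (∀ i j, i < j → M i j = 0) ∧ ∀ i, M i i ≠ 0}

theorem card_Tri (n : ℕ) (F : Type*) [Field F] [Fintype F] :
    Nat.card (Tri n F) = Fintype.card F ^ (n * (n - 1) / 2) * (Fintype.card F - 1) ^ n := by
  classical
  let e : Tri n F ≃ ((i : Fin n) → (Fin i → F)) × (Fin n → Fˣ) :=
    { toFun := fun M => (fun i j => M.1 i ⟨j, j.2.trans i.2⟩, fun i => Units.mk0 _ (M.2.2 i))
      invFun := fun p => ⟨fun i j => if h : (j : ℕ) < i then p.1 i ⟨j, h⟩ else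
          if j = i then (p.2 i : F) else 0, fun i j hij => by
            dsimp only
            rw [dif_neg (by have := Fin.lt_def.1 hij; omega), if_neg hij.ne'],
          fun i => by simp⟩
      left_inv := fun M => by
        apply Subtype.ext
        funext i j
        dsimp only
        split_ifs with h1 h2
        · rfl
        · subst h2; rfl
        · exact (M.2.1 i j (lt_of_le_of_ne (Fin.le_def.2 (by omega)) (Ne.symm h2))).symm
      right_inv := fun p => by
        ext i j
        · simp
        · simp }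
  rw [Nat.card_congr e, Nat.card_prod, Nat.card_pi, Nat.card_fun, Nat.card_units]
  simp only [Nat.card_eq_fintype_card, Fintype.card_fin, Fintype.card_fun]
  rw [Finset.prod_pow_eq_pow_sum, Fin.sum_univ_eq_sum_range (fun i => i), Finset.sum_range_id]

theorem det_of_lower {n : ℕ} {F : Type*} [Field F] {M : Matrix (Fin n) (Fin n) F}
    (h : ∀ i j, i < j → M i j = 0) : M.det = ∏ i, M i i :=
  Matrix.det_of_isLowerTriangular M fun _ _ hij => h _ _ hij

/-- The span of the first `k` coordinate vectors. -/
def coordSub (F : Type*) [Field F] (n k : ℕ) : Submodule F (Fin n → F) where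
  carrier := {v : Fin n → F | ∀ i : Fin n, k ≤ (i : ℕ) → v i = 0}
  add_mem' := fun {a b} ha hb i hi => by simp [ha i hi, hb i hi]
  zero_mem' := fun _ _ => rfl
  smul_mem' := fun c a ha i hi => by simp [ha i hi]

theorem mem_coordSub {F : Type*} [Field F] {n k : ℕ} {v : Fin n → F} :
    v ∈ coordSub F n k ↔ ∀ i : Fin n, k ≤ (i : ℕ) → v i = 0 := Iff.rfl

theorem linearIndependent_single_comp {F : Type*} [Field F] {ι κ : Type*} [Fintype ι]
    [DecidableEq ι] (f : κ → ι) (hf : Function.Injective f) :
    LinearIndependent F fun k => (Pi.single (f k) 1 : ι → F) := by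
  have := (Pi.basisFun F ι).linearIndependent.comp f hf
  convert this using 1
  funext k
  simp

theorem coordSub_eq_span (F : Type*) [Field F] {n k : ℕ} (hk : k ≤ n) :
    coordSub F n k =
      Submodule.span F (Set.range fun i : Fin k => (Pi.single (Fin.castLE hk i) 1 : Fin n → F)) := by
  apply le_antisymm
  · intro v hv
    rw [pi_eq_sum_univ' v]
    refine Submodule.sum_mem _ fun i _ => ?_
    by_cases hi : (i : ℕ) < k
    · refine Submodule.smul_mem _ _ (Submodule.subset_span ⟨⟨i, hi⟩, ?_⟩)
      rfl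
    · rw [hv i (not_lt.1 hi), zero_smul]; exact Submodule.zero_mem _
  · rw [Submodule.span_le]
    rintro _ ⟨i, rfl⟩ j hj
    apply Pi.single_eq_of_ne
    rintro rfl
    simp at hj
    omega

theorem finrank_coordSub (F : Type*) [Field F] {n k : ℕ} (hk : k ≤ n) :
    finrank F (coordSub F n k) = k := by
  rw [coordSub_eq_span F hk,
    finrank_span_eq_card (linearIndependent_single_comp _ (Fin.castLE_injective hk))]
  simp

/-- Linearly independent families inside a subspace. -/
theorem card_li_in {F V : Type*} [Field F] [Fintype F] [AddCommGroup V] [Module F V] [Finite V]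
    (W : Submodule F V) {k : ℕ} (hk : k ≤ finrank F W) :
    Nat.card {y : Fin k → V // LinearIndependent F y ∧ ∀ i, y i ∈ W} =
      ∏ i : Fin k, (Fintype.card F ^ finrank F W - Fintype.card F ^ (i : ℕ)) := by
  rw [← card_linearIndependent hk]
  refine Nat.card_congr
    { toFun := fun y => ⟨fun i => ⟨y.1 i, y.2.2 i⟩,
        LinearIndependent.of_comp W.subtype y.2.1⟩
      invFun := fun s => ⟨fun i => (s.1 i : V), s.2.map' W.subtype W.ker_subtype,
        fun i => (s.1 i).2⟩
      left_inv := fun _ => rfl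
      right_inv := fun _ => rfl }

/-- `GL` is transitive on linearly independent families. -/
theorem exists_gl_family {F : Type*} [Field F] {ι : Type} [Fintype ι] [DecidableEq ι] {κ : Type*}
    {u v : κ → ι → F} (hu : LinearIndependent F u) (hv : LinearIndependent F v) :
    ∃ g : GL ι F, ∀ k, (g : Matrix ι ι F) *ᵥ u k = v k := by
  obtain ⟨φ, hφ, h⟩ := exists_map_span_of_linearIndependent hu hv
  obtain ⟨g, hg⟩ := Submodule.exists_linearEquiv_restrict_eq (LinearEquiv.ofInjective φ hφ)
  refine ⟨(toLE ι F).symm g, fun k => ?_⟩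
  rw [← toLE_apply, MulEquiv.apply_symm_apply, ← h]
  exact (hg ⟨u k, Submodule.subset_span ⟨k, rfl⟩⟩).symm

theorem orth_span_iff {F V : Type*} [Field F] [AddCommGroup V] [Module F V]
    (B : LinearMap.BilinForm F V) {κ : Type*} (y : κ → V) (a : V) :
    a ∈ B.orthogonal (Submodule.span F (Set.range y)) ↔ ∀ i, B (y i) a = 0 := by
  rw [LinearMap.BilinForm.mem_orthogonal_iff]
  constructor
  · intro h i; exact h _ (Submodule.subset_span ⟨i, rfl⟩)
  · intro h n hn
    have : Submodule.span F (Set.range y) ≤ LinearMap.ker (B.flip a) := by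
      rw [Submodule.span_le]; rintro _ ⟨i, rfl⟩; exact h i
    exact this hn

/-- Linearly independent totally isotropic families. -/
theorem card_li_iso {F V : Type*} [Field F] [Fintype F] [AddCommGroup V] [Module F V] [Finite V]
    (B : LinearMap.BilinForm F V) (hB : B.Nondegenerate) (hA : B.IsAlt) (k : ℕ) :
    Nat.card {y : Fin k → V // LinearIndependent F y ∧ ∀ i j, B (y i) (y j) = 0} =
      ∏ i ∈ Finset.range k, (Fintype.card F ^ (finrank F V - i) - Fintype.card F ^ i) := by
  classical
  induction k with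
  | zero =>
    rw [Finset.prod_range_zero, Nat.card_eq_one_iff_unique]
    exact ⟨⟨fun a b => Subtype.ext (Subsingleton.elim _ _)⟩,
      ⟨⟨Fin.elim0, linearIndependent_empty_type, fun i => i.elim0⟩⟩⟩
  | succ k ih =>
    have : Module.Finite F V := Module.Finite.of_finite
    let e : {y : Fin (k + 1) → V // LinearIndependent F y ∧ ∀ i j, B (y i) (y j) = 0} ≃
        Σ s : {y : Fin k → V // LinearIndependent F y ∧ ∀ i j, B (y i) (y j) = 0},
          ((B.orthogonal (Submodule.span F (Set.range s.1)) : Set V) \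
            (Submodule.span F (Set.range s.1) : Set V) : Set V) :=
      { toFun := fun y => ⟨⟨Fin.tail y.1, (linearIndependent_finSucc.1 y.2.1).1,
            fun i j => y.2.2 _ _⟩, y.1 0, (orth_span_iff B _ _).2 fun i => y.2.2 _ _,
            (linearIndependent_finSucc.1 y.2.1).2⟩
        invFun := fun s => ⟨Fin.cons s.2.1 s.1.1, linearIndependent_finCons.2 ⟨s.1.2.1, s.2.2.2⟩,
          fun i j => by
            have h := (orth_span_iff B _ _).1 s.2.2.1
            refine Fin.cases ?_ (fun i => ?_) i <;> refine Fin.cases ?_ (fun j => ?_) j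
            · exact hA _
            · simpa using hA.isRefl _ _ (h j)
            · simpa using h i
            · simpa using s.1.2.2 i j⟩
        left_inv := fun y => Subtype.ext (Fin.cons_self_tail y.1)
        right_inv := fun s => rfl }
    have hc : ∀ s : {y : Fin k → V // LinearIndependent F y ∧ ∀ i j, B (y i) (y j) = 0},
        Nat.card ((B.orthogonal (Submodule.span F (Set.range s.1)) : Set V) \
            (Submodule.span F (Set.range s.1) : Set V) : Set V) =
          Fintype.card F ^ (finrank F V - k) - Fintype.card F ^ k := by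
      intro s
      have hle : Submodule.span F (Set.range s.1) ≤
          B.orthogonal (Submodule.span F (Set.range s.1)) := by
        rw [Submodule.span_le]
        rintro _ ⟨j, rfl⟩
        exact (orth_span_iff B _ _).2 fun i => s.2.2 i j
      have hr : finrank F (Submodule.span F (Set.range s.1)) = k := by
        rw [finrank_span_eq_card s.2.1, Fintype.card_fin]
      rw [Nat.card_coe_set_eq, Set.ncard_sdiff hle, ← Nat.card_coe_set_eq, ← Nat.card_coe_set_eq]
      have hh : ∀ U : Submodule F V, Nat.card (U : Set V) = Fintype.card F ^ finrank F U :=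
        fun U => by
          rw [← Nat.card_eq_fintype_card]
          exact Module.natCard_eq_pow_finrank (K := F) (V := U)
      rw [hh, hh, LinearMap.BilinForm.finrank_orthogonal hB, hr]
    have := Fintype.ofFinite V
    rw [Nat.card_congr e, Nat.card_sigma, Finset.sum_congr rfl fun s _ => hc s, Finset.sum_const,
      Finset.card_univ, ← Nat.card_eq_fintype_card, ih, Finset.prod_range_succ, smul_eq_mul]

theorem prod_iso_eq (q l k : ℕ) :
    ∏ i ∈ Finset.range k, (q ^ (2 * (l + k) - i) - q ^ i) =
      q ^ (k * (k - 1) / 2) * ∏ i ∈ Finset.range k, (q ^ (2 * (l + i + 1)) - 1) := by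
  rw [← Finset.sum_range_id, ← Finset.prod_pow_eq_pow_sum,
    ← Finset.prod_range_reflect (fun i => q ^ (2 * (l + i + 1)) - 1), ← Finset.prod_mul_distrib]
  refine Finset.prod_congr rfl fun i hi => ?_
  have := Finset.mem_range.1 hi
  rw [Nat.mul_sub, mul_one, ← pow_add]
  congr 2
  omega

theorem tri_add (k : ℕ) : k * (k + 1) / 2 + k * (k - 1) / 2 = k ^ 2 := by
  have h1 := Finset.sum_range_id_mul_two k
  have h2 := Finset.sum_range_id k
  have h3 := Finset.sum_range_id (k + 1)
  rw [Finset.sum_range_succ, Nat.add_sub_cancel, mul_comm] at h3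
  rw [← h3, ← h2]
  rcases k with _ | k
  · simp
  · rw [Nat.add_sub_cancel] at h1
    nlinarith

/-- Orbit of a totally isotropic family under the symplectic group. -/
theorem card_sp_orbit {F : Type*} [Field F] [Fintype F] {l k m : ℕ} (hm : m = l + k)
    {x : Fin k → Fin m ⊕ Fin m → F} (hx : LinearIndependent F x)
    (h0 : ∀ i j, Cfsg.sympForm m F (x i) (x j) = 0) :
    Nat.card {y : Fin k → Fin m ⊕ Fin m → F // ∃ g : Matrix.symplecticGroup (Fin m) F, ∀ i,
      Cfsg.spToMat m F g *ᵥ x i = y i} = Fintype.card F ^ (k * (k - 1) / 2) *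
        ∏ i ∈ Finset.range k, (Fintype.card F ^ (2 * (l + i + 1)) - 1) := by
  have := card_li_iso (sympBilin m F) sympBilin_nondegenerate sympBilin_isAlt k
  rw [Module.finrank_fintype_fun_eq_card, Fintype.card_sum, Fintype.card_fin, ← two_mul] at this
  rw [← prod_iso_eq, ← hm, ← this]
  refine Nat.card_congr (Equiv.subtypeEquivRight fun y => ⟨?_, fun hy => ?_⟩)
  · rintro ⟨g, hg⟩
    refine ⟨li_of_rep _ hx hg, fun i j => ?_⟩
    rw [sympBilin_apply, ← hg, ← hg]
    exact (sp_sympForm g _ _).trans (h0 i j)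
  · exact sp_witt_family hx hy.1 fun i j => by rw [h0, ← sympBilin_apply, hy.2]

end Cfsg.Agent.H27
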