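import Cfsg.Agent.H27.MonoSL

/-!
The monomial group of `SL(V)` is maximal for `dim V ≥ 8`, `|F| ≥ 5`.
-/

set_option autoImplicit false
set_option linter.unusedSectionVars false

namespace Cfsg.Agent.H27

open Module Cfsg.Geo

variable {F V : Type*} [Field F] [AddCommGroup V] [Module F V] [FiniteDimensional F V]
variable {ι : Type*} [Fintype ι] [DecidableEq ι]
variable {H : Subgroup (V ≃ₗ[F] V)} {b : Basis ι F V}

theorem exists_of_mem_dstab_frame {y : V ≃ₗ[F] V} (hy : y ∈ dstab (frame b)) :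
    ∃ σ : Equiv.Perm ι, ∀ k, ∃ c : F, c ≠ 0 ∧ y (b k) = c • b (σ k) := by
  obtain ⟨σ, hσ⟩ := hy
  refine ⟨σ, fun k => ?_⟩
  obtain ⟨c, hc⟩ : ∃ c : F, c • b (σ k) = y (b k) :=
    mem_frame.1 (by rw [← hσ]; exact ⟨_, self_mem_frame b k, rfl⟩)
  exact ⟨c, fun h0 => b.ne_zero k (by rw [← y.map_eq_zero_iff, ← hc, h0, zero_smul]), hc.symm⟩

theorem frame_unitsSMul (b : Basis ι F V) (w : ι → Fˣ) : frame (b.unitsSMul w) = frame b := by
  funext i
  rw [frame, frame, Basis.unitsSMul_apply, Units.smul_def]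
  exact Submodule.span_singleton_smul_eq (w i).isUnit _

theorem permHom_mem (b : Basis ι F V) (σ : Equiv.Perm ι) : permHom b σ ∈ dstab (frame b) :=
  mem_dstab_frame fun i => ⟨σ i, by rw [permHom_apply]; exact self_mem_frame b _⟩

namespace PartHyp

variable (P : PartHyp H b)
include P

/-- Claim B: no column of a non-monomial element has full support. -/
theorem claimB (h5 : 5 ≤ Fintype.card ι) {a : F} (ha0 : a ≠ 0) (ha2 : a * a ≠ 1)
    (ha3 : a * a + a + 1 ≠ 0) {g : V ≃ₗ[F] V} (hg : g ∈ H) {k : ι}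
    (hk : ∀ i, b.coord i (g (b k)) ≠ 0) : g ∈ dstab (frame b) := by
  by_contra hgM
  let b' := b.unitsSMul fun i => Units.mk0 _ (hk i)
  have hb' : frame b' = frame b := frame_unitsSMul b _
  have hc : ∀ i x, b'.coord i x = (b.coord i (g (b k)))⁻¹ * b.coord i x := fun i x => by
    simp [b', Units.smul_def]
  have hv : ∀ i, b'.coord i (g (b k)) = 1 := fun i => by rw [hc, inv_mul_cancel₀ (hk i)]
  have hP : ∀ σ : alternatingGroup ι, permHom b' σ ∈ H := fun σ => P.le ⟨hb' ▸ permHom_mem b' _,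
    mem_SLV.2 (by rw [det_permHom, Equiv.Perm.mem_alternatingGroup.1 σ.2]; simp)⟩
  have hfix : ∀ σ : Equiv.Perm ι, permHom b' σ (g (b k)) = g (b k) := fun σ =>
    eq_of_coord b' fun j => by
      rw [← σ.apply_symm_apply j, coord_permHom, hv, hv]
  obtain ⟨l, hl⟩ := exists_not_mem_list [k] (by simp; omega)
  have hl : l ≠ k := by simpa using hl
  have hf : ∀ σ : alternatingGroup ι, ∃ j : {j // j ≠ k}, ∃ c : F, c ≠ 0 ∧
      permHom b' σ (g (b l)) = c • g (b j) := fun σ => by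
    obtain ⟨ρ, hρ⟩ := exists_of_mem_dstab_frame
      (P.conj_mem hg (hP σ) (k := k) (c := 1) (by rw [hfix, one_smul]))
    obtain ⟨c, hc0, hc⟩ := hρ l
    obtain ⟨c', hc0', hc'⟩ := hρ k
    rw [le_mul_apply, le_mul_apply, hfix, le_inv_apply] at hc'
    have h1 : ρ k = k := by
      by_contra hne
      have := congrArg (b.coord k) hc'
      simp [Ne.symm hne] at this
    refine ⟨⟨ρ l, fun h => hl (ρ.injective (h.trans h1.symm))⟩, c, hc0, ?_⟩
    rw [← map_smul, ← hc, le_mul_apply, le_mul_apply, le_apply_inv]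
  choose f cf hcf hf using hf
  let K : Subgroup (alternatingGroup ι) := (stab (Submodule.span F {g (b l)})).comap
    ((permHom b').comp (alternatingGroup ι).subtype)
  have hK : K = ⊤ := by
    apply alt_eq_top_of_index_lt h5
    have h1 : K.index ≤ Nat.card {j // j ≠ k} := by
      refine Nat.card_le_card_of_injective (fun q : alternatingGroup ι ⧸ K => f q.out) ?_
      intro q q' hq
      rw [← q.out_eq', ← q'.out_eq', QuotientGroup.eq]
      refine mem_stab_of_mapsTo fun x hx => ?_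
      obtain ⟨c, rfl⟩ := Submodule.mem_span_singleton.1 hx
      rw [map_smul]
      refine Submodule.smul_mem _ _ (Submodule.mem_span_singleton.2
        ⟨cf q'.out * (cf q.out)⁻¹, ?_⟩)
      apply (permHom b' q.out).injective
      change _ = (permHom b' q.out * permHom b' ((q.out⁻¹ * q'.out : alternatingGroup ι) : _)) _
      rw [← map_mul, ← Subgroup.coe_mul, mul_inv_cancel_left, map_smul, hf, hf, smul_smul,
        inv_mul_cancel_right₀ (hcf _)]
      exact congrArg (fun j : {j // j ≠ k} => cf q'.out • g (b j)) hq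
    rw [Nat.card_eq_fintype_card, Fintype.card_subtype_compl, Fintype.card_subtype_eq] at h1
    omega
  have hconst : ∀ i j, b'.coord i (g (b l)) = b'.coord j (g (b l)) := by
    intro i j
    by_cases hij : i = j
    · rw [hij]
    obtain ⟨m1, hm1⟩ := exists_not_mem_list [i, j] (by simp; omega)
    obtain ⟨m2, hm2⟩ := exists_not_mem_list [i, j, m1] (by simp; omega)
    obtain ⟨m3, hm3⟩ := exists_not_mem_list [i, j, m1, m2] (by simp; omega)
    simp only [List.mem_cons, List.not_mem_nil, or_false, not_or] at hm1 hm2 hm3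
    obtain ⟨m, hmi, hmj, hmm, hm⟩ : ∃ m, m ≠ i ∧ m ≠ j ∧ m ≠ m1 ∧ b.coord m (g (b l)) ≠ 0 := by
      by_cases h0 : b.coord m2 (g (b l)) = 0
      · exact ⟨m3, hm3.1, hm3.2.1, hm3.2.2.1, fun h1 =>
          hgM (P.claimA h5 ha0 ha2 ha3 hg hm3.2.2.2 h1 h0)⟩
      · exact ⟨m2, hm2.1, hm2.2.1, hm2.2.2, h0⟩
    let σ : alternatingGroup ι := ⟨Equiv.swap i j * Equiv.swap j m1, by
      rw [Equiv.Perm.mem_alternatingGroup, map_mul, Equiv.Perm.sign_swap hij,
        Equiv.Perm.sign_swap (Ne.symm hm1.2)]; simp⟩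
    have hσ : σ ∈ K := hK ▸ Subgroup.mem_top σ
    obtain ⟨μ, hμ⟩ := Submodule.mem_span_singleton.1
      (stab_apply hσ (Submodule.mem_span_singleton_self _))
    change _ = permHom b' (Equiv.swap i j * Equiv.swap j m1) _ at hμ
    have e1 := coord_permHom b' (Equiv.swap i j * Equiv.swap j m1) m (g (b l))
    have e2 := coord_permHom b' (Equiv.swap i j * Equiv.swap j m1) i (g (b l))
    rw [← hμ, Equiv.Perm.mul_apply, Equiv.swap_apply_of_ne_of_ne hmj hmm,
      Equiv.swap_apply_of_ne_of_ne hmi hmj, map_smul, smul_eq_mul] at e1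
    have hμ1 : μ = 1 := mul_right_cancel₀ (by rw [hc]; exact mul_ne_zero (inv_ne_zero (hk m)) hm)
      (e1.trans (one_mul _).symm)
    rw [← hμ, hμ1, one_smul, Equiv.Perm.mul_apply,
      Equiv.swap_apply_of_ne_of_ne hij (Ne.symm hm1.1), Equiv.swap_apply_left] at e2
    exact e2.symm
  have : g (b l) = b'.coord k (g (b l)) • g (b k) := eq_of_coord b' fun j => by
    rw [map_smul, hv, smul_eq_mul, mul_one, hconst j k]
  rw [← map_smul] at this
  have := congrArg (b.coord l) (g.injective this)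
  simp [hl] at this

omit P in
theorem exists_diag (b : Basis ι F V) (k0 : ι) {u u' : V} (hu : ∀ k, k ≠ k0 → b.coord k u ≠ 0)
    (hu' : ∀ k, k ≠ k0 → b.coord k u' ≠ 0) (h0 : b.coord k0 u = 0) (h0' : b.coord k0 u' = 0) :
    ∃ d ∈ dstab (frame b) ⊓ SLV F V, d u = u' := by
  let w : ι → Fˣ := fun k =>
    if h : k = k0 then 1 else Units.mk0 _ (div_ne_zero (hu' k h) (hu k h))
  let g := b.equiv (b.unitsSMul w) (Equiv.refl ι)
  have hg : ∀ k, g (b k) = (w k : F) • b k := fun k => by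
    simp [g, Basis.unitsSMul_apply, Units.smul_def]
  have hc : ∀ k x, b.coord k (g x) = w k * b.coord k x := fun k x => by
    have : b.coord k ∘ₗ (g : V →ₗ[F] V) = (w k : F) • b.coord k := b.ext fun l => by
      rw [LinearMap.comp_apply, LinearEquiv.coe_coe, hg]
      by_cases hl : k = l <;> simp [hl]
    exact LinearMap.congr_fun this x
  obtain ⟨g1, s1, d1, f1⟩ := dil_frame b k0 (inv_ne_zero (det_ne_zero' g))
  refine ⟨g * g1, ⟨(dstab _).mul_mem (mem_dstab_frame fun k => ⟨k, mem_frame.2 ⟨_, (hg k).symm⟩⟩)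
    (mem_dstab_of_stab s1), mem_SLV.2 (by
      rw [det_mul', d1, mul_inv_cancel₀ (det_ne_zero' g)])⟩, eq_of_coord b fun k => ?_⟩
  rw [le_mul_apply, f1, h0, mul_zero, zero_smul, add_zero, hc]
  by_cases hk : k = k0
  · rw [hk, h0, h0', mul_zero]
  · simp only [w, dif_neg hk, Units.val_mk0]
    exact div_mul_cancel₀ _ (hu k hk)

omit P in
theorem exists_small [Fintype F] (hq : 5 ≤ Fintype.card F) (b : Basis ι F V) (e : Fin 3 → ι)
    (he : Function.Injective e) (φ ψ : Dual F V) {u : V} (hu : ∀ m, b.coord (e m) u ≠ 0) :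
    ∃ z, z ≠ 0 ∧ φ z = 0 ∧ ψ z = 0 ∧ (∀ k, (∀ m, k ≠ e m) → b.coord k z = 0) ∧
      ∀ m, b.coord (e m) (u + z) ≠ 0 := by
  classical
  let L : (Fin 3 → F) →ₗ[F] V := Fintype.linearCombination F fun m => b (e m)
  have hL : ∀ t, L t = ∑ m, t m • b (e m) := fun t => Fintype.linearCombination_apply _ _ _
  have hLc : ∀ t m, b.coord (e m) (L t) = t m := fun t m => by
    rw [hL, map_sum, Finset.sum_eq_single m]
    · simp
    · intro m' _ hm'
      rw [map_smul, coord_ne b (he.ne hm'.symm), smul_zero]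
    · simp
  have : LinearMap.ker ((φ.prod ψ) ∘ₗ L) ≠ ⊥ := LinearMap.ker_ne_bot_of_finrank_lt (by simp)
  obtain ⟨t, ht, ht0⟩ := Submodule.exists_mem_ne_zero_of_ne_bot this
  have ht : φ (L t) = 0 ∧ ψ (L t) = 0 := by simpa using ht
  obtain ⟨c, hc⟩ := exists_not_mem_list (ι := F) [0, -b.coord (e 0) u / t 0,
    -b.coord (e 1) u / t 1, -b.coord (e 2) u / t 2] (by simp; omega)
  simp only [List.mem_cons, List.not_mem_nil, or_false, not_or] at hc
  refine ⟨c • L t, fun h => ht0 (funext fun m => ?_), by simp [ht.1], by simp [ht.2],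
    fun k hk => ?_, fun m => ?_⟩
  · have := congrArg (b.coord (e m)) h
    rw [map_smul, hLc, map_zero, smul_eq_mul] at this
    exact (mul_eq_zero.1 this).resolve_left hc.1
  · rw [map_smul, hL, map_sum, Finset.sum_eq_zero fun m _ => by
      rw [map_smul, coord_ne b (hk m), smul_zero], smul_zero]
  · rw [map_add, map_smul, hLc, smul_eq_mul]
    intro h
    by_cases htm : t m = 0
    · exact hu m (by simpa [htm] using h)
    · have : c = -b.coord (e m) u / t m := by field_simp; linear_combination h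
      fin_cases m
      · exact hc.2.1 this
      · exact hc.2.2.1 this
      · exact hc.2.2.2 this

theorem le_dstab [Fintype F] (hq : 5 ≤ Fintype.card F) (h8 : 8 ≤ Fintype.card ι)
    {g : V ≃ₗ[F] V} (hg : g ∈ H) : g ∈ dstab (frame b) := by
  classical
  by_contra hgM
  obtain ⟨a, ha0, ha2, ha3⟩ : ∃ a : F, a ≠ 0 ∧ a * a ≠ 1 ∧ a * a + a + 1 ≠ 0 := by
    by_contra hc
    push Not at hc
    obtain ⟨x, hx⟩ := exists_not_mem_list (ι := F) [0, 1, -1] (by simp; omega)
    obtain ⟨y, hy⟩ := exists_not_mem_list (ι := F) [0, 1, -1, x] (by simp; omega)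
    simp only [List.mem_cons, List.not_mem_nil, or_false, not_or] at hx hy
    have h1 : ∀ x : F, x ≠ 1 → x ≠ -1 → x * x ≠ 1 := fun x h1 h2 h =>
      (mul_self_eq_one_iff.1 h).elim h1 h2
    have e1 := hc x hx.1 (h1 x hx.2.1 hx.2.2)
    have e3 := hc (-x) (neg_ne_zero.2 hx.1) (by simpa using h1 x hx.2.1 hx.2.2)
    have h2 : (2 : F) = 0 := mul_left_cancel₀ hx.1 (by linear_combination e1 - e3)
    refine quad_three hq 1 fun c hc0 hc1 => ?_
    have := hc c hc0 (h1 c (by rintro rfl; exact hc1 (by linear_combination h2)) hc1)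
    linear_combination this
  have h5 : 5 ≤ Fintype.card ι := by omega
  obtain ⟨i0, -⟩ := exists_not_mem_list (ι := ι) [] (by simp; omega)
  obtain ⟨i1, hi1⟩ := exists_not_mem_list [i0] (by simp; omega)
  obtain ⟨i2, hi2⟩ := exists_not_mem_list [i0, i1] (by simp; omega)
  simp only [List.mem_cons, List.not_mem_nil, or_false, not_or] at hi1 hi2
  have hg' : g⁻¹ ∉ dstab (frame b) := fun h => hgM ((Subgroup.inv_mem_iff _).1 h)
  obtain ⟨k0, hk0⟩ : ∃ k0, b.coord k0 (g⁻¹ (b i0)) = 0 := by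
    by_contra hc
    push Not at hc
    exact hg' (P.claimB h5 ha0 ha2 ha3 (H.inv_mem hg) hc)
  have hu : ∀ k, k ≠ k0 → b.coord k (g⁻¹ (b i0)) ≠ 0 := fun k hk h =>
    hg' (P.claimA h5 ha0 ha2 ha3 (H.inv_mem hg) hk h hk0)
  set u := g⁻¹ (b i0) with hudef
  have hgu : g u = b i0 := le_apply_inv g _
  have key : ∀ z, (∀ k, k ≠ k0 → b.coord k (u + z) ≠ 0) → b.coord k0 z = 0 →
      b.coord i1 (g z) = 0 → b.coord i2 (g z) = 0 → ∃ j, ∃ c : F, c ≠ 0 ∧ g (u + z) = c • b j := by
    intro z h1 h2 h3 h4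
    obtain ⟨d, hd, hdu⟩ := exists_diag b k0 hu h1 hk0 (by rw [map_add, hk0, h2, add_zero])
    have hx : g * d * g⁻¹ ∈ H := H.mul_mem (H.mul_mem hg (P.le hd)) (H.inv_mem hg)
    have hx' : (g * d * g⁻¹) (b i0) = g (u + z) := by rw [← hdu]; rfl
    obtain ⟨σ, hσ⟩ := exists_of_mem_dstab_frame (P.claimA h5 ha0 ha2 ha3 hx (k := i0)
      (Ne.symm hi2.2) (by rw [hx', map_add, map_add, hgu, h3, coord_ne b hi1, add_zero])
      (by rw [hx', map_add, map_add, hgu, h4, coord_ne b hi2.1, add_zero]))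
    obtain ⟨c, hc0, hc⟩ := hσ i0
    exact ⟨_, c, hc0, hx' ▸ hc⟩
  obtain ⟨E⟩ := Function.Embedding.nonempty_of_card_le (α := (Fin 3 ⊕ Fin 3) ⊕ Unit)
    (β := {k // k ≠ k0}) (by
      rw [Fintype.card_subtype_compl, Fintype.card_subtype_eq]; simp; omega)
  have hE : ∀ {s t}, s ≠ t → (E s : ι) ≠ E t := fun h h' => h (E.injective (Subtype.ext h'))
  obtain ⟨z1, z10, z11, z12, z13, z14⟩ := exists_small hq b (fun m => E (.inl (.inl m)))
    (fun m m' h => by simpa using E.injective (Subtype.ext h))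
    (b.coord i1 ∘ₗ (g : V →ₗ[F] V)) (b.coord i2 ∘ₗ (g : V →ₗ[F] V)) fun m => hu _ (E _).2
  obtain ⟨z2, z20, z21, z22, z23, z24⟩ := exists_small hq b (fun m => E (.inl (.inr m)))
    (fun m m' h => by simpa using E.injective (Subtype.ext h))
    (b.coord i1 ∘ₗ (g : V →ₗ[F] V)) (b.coord i2 ∘ₗ (g : V →ₗ[F] V)) fun m => hu _ (E _).2
  have s1 : ∀ k, k ≠ k0 → b.coord k (u + z1) ≠ 0 := fun k hk => by
    by_cases h : ∀ m, k ≠ E (.inl (.inl m))
    · rw [map_add, z13 k h, add_zero]; exact hu k hk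
    · push Not at h
      obtain ⟨m, rfl⟩ := h
      exact z14 m
  have s2 : ∀ k, k ≠ k0 → b.coord k (u + z2) ≠ 0 := fun k hk => by
    by_cases h : ∀ m, k ≠ E (.inl (.inr m))
    · rw [map_add, z23 k h, add_zero]; exact hu k hk
    · push Not at h
      obtain ⟨m, rfl⟩ := h
      exact z24 m
  have s3 : ∀ k, k ≠ k0 → b.coord k (u + (z1 + z2)) ≠ 0 := fun k hk => by
    by_cases h : ∀ m, k ≠ E (.inl (.inr m))
    · rw [← add_assoc, map_add, z23 k h, add_zero]; exact s1 k hk
    · push Not at h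
      obtain ⟨m, rfl⟩ := h
      rw [add_comm z1, ← add_assoc, map_add, z13 _ fun m' => hE (by simp), add_zero]
      exact z24 m
  have t1 : b.coord k0 z1 = 0 := z13 _ fun m => (E _).2.symm
  have t2 : b.coord k0 z2 = 0 := z23 _ fun m => (E _).2.symm
  obtain ⟨j1, c1, hc1, e1⟩ := key z1 s1 t1 z11 z12
  obtain ⟨j2, c2, hc2, e2⟩ := key z2 s2 t2 z21 z22
  obtain ⟨j3, c3, hc3, e3⟩ := key (z1 + z2) s3 (by rw [map_add, t1, t2, add_zero])
    (by rw [map_add, map_add]; exact (congrArg₂ (· + ·) z11 z21).trans (add_zero 0))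
    (by rw [map_add, map_add]; exact (congrArg₂ (· + ·) z12 z22).trans (add_zero 0))
  have r1 : b.coord (E (.inr ())) z1 = 0 := z13 _ fun m => hE (by simp)
  have r2 : b.coord (E (.inr ())) z2 = 0 := z23 _ fun m => hE (by simp)
  have same : ∀ z z' j (c c' : F), b.coord (E (.inr ())) z = 0 → b.coord (E (.inr ())) z' = 0 →
      g (u + z) = c • b j → g (u + z') = c' • b j → c ≠ 0 → z = z' := by
    intro z z' j c c' h1 h2 h3 h4 hc
    have h5 : c' • (u + z) = c • (u + z') := g.injective (by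
      rw [map_smul, map_smul, h3, h4, smul_comm])
    have h6 := congrArg (b.coord (E (.inr ()))) h5
    simp only [map_smul, map_add, h1, h2, add_zero, smul_eq_mul] at h6
    rw [mul_right_cancel₀ (hu _ (E _).2) h6] at h5
    exact add_left_cancel (smul_right_injective V hc h5)
  have n0 : j1 ≠ i0 := by
    rintro rfl
    exact z10 (same z1 0 j1 c1 1 r1 (map_zero _) e1 (by rw [add_zero, hgu, one_smul]) hc1)
  have n2 : j1 ≠ j2 := by
    rintro rfl
    have := same z1 z2 j1 c1 c2 r1 r2 e1 e2 hc1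
    refine z10 (eq_of_coord b fun k => ?_)
    rw [map_zero]
    by_cases h : ∀ m, k ≠ E (.inl (.inl m))
    · exact z13 k h
    · push Not at h
      obtain ⟨m, rfl⟩ := h
      rw [this]
      exact z23 _ fun m' => hE (by simp)
  have n3 : j1 ≠ j3 := by
    rintro rfl
    exact z20 (left_eq_add.1 (same z1 (z1 + z2) j1 c1 c3 r1 (by rw [map_add, r1, r2, add_zero])
      e1 e3 hc1))
  have : g (u + z1) + g (u + z2) = g u + g (u + (z1 + z2)) := by
    simp only [map_add]; abel
  rw [e1, e2, e3, hgu] at this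
  have := congrArg (b.coord j1) this
  simp [n0, n2, n3, hc1] at this

end PartHyp

end Cfsg.Agent.H27
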