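import Cfsg.Agent.H27.MonoSL2

/-!
The monomial group of `SL(V)` is maximal for `dim V ≥ 8`, `|F| ≥ 5` (end of the proof), and the
maximality of the stabilisers of direct-sum decompositions in `SL(V)`.
-/

set_option autoImplicit false
set_option linter.unusedSectionVars false

namespace Cfsg.Agent.H27

open Module Cfsg.Geo

variable {F V : Type*} [Field F] [AddCommGroup V] [Module F V]

/-- The group induced by `H` on a quotient space. -/
def quotGrp {V' : Type*} [AddCommGroup V'] [Module F V'] (p : V →ₗ[F] V')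
    (_hp : Function.Surjective p) (H : Subgroup (V ≃ₗ[F] V)) : Subgroup (V' ≃ₗ[F] V') where
  carrier := {y | ∃ g ∈ H, ∀ x, y (p x) = p (g x)}
  mul_mem' := by
    rintro y y' ⟨g, hg, h⟩ ⟨g', hg', h'⟩
    exact ⟨g * g', H.mul_mem hg hg', fun x => by rw [le_mul_apply, le_mul_apply, h', h]⟩
  one_mem' := ⟨1, H.one_mem, fun _ => rfl⟩
  inv_mem' := by
    rintro y ⟨g, hg, h⟩
    refine ⟨g⁻¹, H.inv_mem hg, fun x => y.injective ?_⟩
    rw [le_apply_inv, h, le_apply_inv]

theorem exists_quot {V' : Type*} [AddCommGroup V'] [Module F V'] (p : V →ₗ[F] V')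
    (hp : Function.Surjective p) {g : V ≃ₗ[F] V} (hg : g ∈ stab (LinearMap.ker p)) :
    ∃ y : V' ≃ₗ[F] V', ∀ x, y (p x) = p (g x) := by
  let e := p.quotKerEquivOfSurjective hp
  refine ⟨e.symm ≪≫ₗ Submodule.Quotient.equiv _ _ g (mem_stab_iff_map.1 hg) ≪≫ₗ e, fun x => ?_⟩
  have : e.symm (p x) = Submodule.Quotient.mk x := by
    rw [LinearEquiv.symm_apply_eq]; rfl
  rw [LinearEquiv.trans_apply, LinearEquiv.trans_apply, this]
  rfl

theorem has_quot {V' : Type*} [AddCommGroup V'] [Module F V'] {p : V →ₗ[F] V'}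
    (hp : Function.Surjective p) {H : Subgroup (V ≃ₗ[F] V)} {g : V ≃ₗ[F] V} (hg : g ∈ H)
    (hg' : g ∈ stab (LinearMap.ker p)) {f : V' → V'} (hf : ∀ x, f (p x) = p (g x)) :
    Has (quotGrp p hp H) f := by
  obtain ⟨y, hy⟩ := exists_quot p hp hg'
  refine ⟨y, ⟨g, hg, hy⟩, fun x => ?_⟩
  obtain ⟨x, rfl⟩ := hp x
  rw [hy, hf]

variable [FiniteDimensional F V] {ι : Type*} [Fintype ι] [DecidableEq ι]
variable {H : Subgroup (V ≃ₗ[F] V)} {b : Basis ι F V}

theorem t1_conj_dg (hH : dstab (frame b) ⊓ SLV F V ≤ H) {r k l : ι} (hk : k ≠ r) (hl : l ≠ r)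
    (hkl : k ≠ l) {ψ : Dual F V} (h : T1 H (b r) ψ) {a : F} (ha : a ≠ 0) :
    T1 H (b r) (ψ + ((a - 1) * ψ (b k)) • b.coord k + ((a⁻¹ - 1) * ψ (b l)) • b.coord l) := by
  obtain ⟨d, hd, hdf⟩ := exists_dg b hkl ha
  have := h.conj' (hH hd)
  have h1 : d⁻¹ (b r) = b r := d.injective (by rw [le_apply_inv, hdf]; simp [hk, hl])
  rw [h1] at this
  convert this using 1
  ext x
  simp only [LinearMap.add_apply, LinearMap.smul_apply, LinearMap.comp_apply, LinearEquiv.coe_coe,
    hdf, map_add, map_smul, smul_eq_mul]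
  ring

theorem SLV_le_of_t1 (h4 : 4 ≤ Fintype.card ι) {a : F} (ha0 : a ≠ 0) (ha1 : a ≠ 1)
    (hH : dstab (frame b) ⊓ SLV F V ≤ H) {r : ι} {ψ : Dual F V} (h : T1 H (b r) ψ)
    (hr : ψ (b r) = 0) {k : ι} (hk : ψ (b k) ≠ 0) : SLV F V ≤ H := by
  have hkr : k ≠ r := by rintro rfl; exact hk hr
  obtain ⟨l, hl⟩ := exists_not_mem_list [r, k] (by simp; omega)
  obtain ⟨l', hl'⟩ := exists_not_mem_list [r, k, l] (by simp; omega)
  simp only [List.mem_cons, List.not_mem_nil, or_false, not_or] at hl hl'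
  have h1 := (t1_conj_dg hH hkr hl.1 (Ne.symm hl.2) h ha0).sub_right h
    (by simp [hr, hkr, hl.1]) hr
  rw [add_assoc, add_sub_cancel_left] at h1
  have h2 := (t1_conj_dg hH hkr hl'.1 (Ne.symm hl'.2.1) h1 ha0).sub_right h1
    (by simp [hkr, hl.1, hl'.1]) (by simp [hkr, hl.1])
  rw [add_assoc, add_sub_cancel_left] at h2
  simp only [LinearMap.add_apply, LinearMap.smul_apply, coord_self, coord_ne b hl.2,
    coord_ne b (Ne.symm hl'.2.1), coord_ne b (Ne.symm hl'.2.2), smul_eq_mul, mul_zero, add_zero,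
    mul_one, zero_smul] at h2
  have hc : (a - 1) * ((a - 1) * ψ (b k)) ≠ 0 :=
    mul_ne_zero (sub_ne_zero.2 ha1) (mul_ne_zero (sub_ne_zero.2 ha1) hk)
  generalize (a - 1) * ((a - 1) * ψ (b k)) = c at h2 hc
  have h3 : ∀ e : F, T1 H (b r) (e • b.coord k) := fun e => by
    rcases eq_or_ne e 0 with rfl | he
    · simpa using t1_zero_right (b r)
    have := t1_conj_dg hH hkr hl.1 (Ne.symm hl.2) h2 (div_ne_zero he hc)
    simp only [LinearMap.smul_apply, coord_self, coord_ne b (Ne.symm hl.2), smul_eq_mul, mul_zero,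
      add_zero, mul_one, zero_smul, ← add_smul] at this
    rwa [show c + (e / c - 1) * c = e by field_simp; ring] at this
  refine (basisDec b).SLV_le_of_pair (fun i j => by rw [finrank_frame, finrank_frame])
    (frame_ne_bot b) hH hkr.symm fun v hv χ => ?_
  obtain ⟨e, rfl⟩ := mem_frame.1 hv
  rw [t1_smul]
  convert h3 (e * χ (b k)) using 1
  ext x
  simp only [LinearMap.smul_apply, LinearMap.comp_apply, basisDec_π, map_smul, smul_eq_mul]
  ring

/-- The coordinates other than `i₀`. -/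
noncomputable def dropCoord (b : Basis ι F V) (i₀ : ι) : V →ₗ[F] ({i // i ≠ i₀} → F) :=
  LinearMap.pi fun i => b.coord i

theorem dropCoord_apply (b : Basis ι F V) (i₀ : ι) (x : V) (i : {i // i ≠ i₀}) :
    dropCoord b i₀ x i = b.coord i x := rfl

theorem dropCoord_basis (b : Basis ι F V) (i₀ : ι) (i : {i // i ≠ i₀}) :
    dropCoord b i₀ (b i) = Pi.basisFun F _ i := by
  ext j
  rw [dropCoord_apply]
  by_cases h : j = i
  · simp [h]
  · rw [coord_ne b (Subtype.coe_injective.ne h)]; simp [h]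

theorem dropCoord_surjective (b : Basis ι F V) (i₀ : ι) : Function.Surjective (dropCoord b i₀) := by
  rw [← LinearMap.range_eq_top, eq_top_iff, ← (Pi.basisFun F {i // i ≠ i₀}).span_eq,
    Submodule.span_le]
  rintro _ ⟨i, rfl⟩
  exact ⟨b i, dropCoord_basis b i₀ i⟩

theorem ker_dropCoord (b : Basis ι F V) (i₀ : ι) :
    LinearMap.ker (dropCoord b i₀) = frame b i₀ := by
  ext x
  rw [LinearMap.mem_ker]
  constructor
  · intro h
    exact mem_frame_of_coord fun j hj => congrFun h ⟨j, hj⟩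
  · intro h
    obtain ⟨c, rfl⟩ := mem_frame.1 h
    ext j
    simp [dropCoord_apply, j.2]

theorem SLV_le_of_fix [Fintype F] (hq : 5 ≤ Fintype.card F) (h5 : 5 ≤ Fintype.card ι)
    (hH : dstab (frame b) ⊓ SLV F V ≤ H) (hS : H ≤ SLV F V) {h : V ≃ₗ[F] V} (hh : h ∈ H)
    (hh' : h ∉ dstab (frame b)) {i₀ : ι} (h0 : h (b i₀) ∈ frame b i₀) : SLV F V ≤ H := by
  obtain ⟨a, -, -, ha0, ha1, -⟩ := exists_three_ne hq 0 1
  have h4 : 4 ≤ Fintype.card ι := by omega
  set p := dropCoord b i₀ with hpdef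
  have hp : Function.Surjective p := dropCoord_surjective b i₀
  set b' := Pi.basisFun F {i // i ≠ i₀} with hb'
  have hc : ∀ (i : {i // i ≠ i₀}) x, b'.coord i (p x) = b.coord i x := fun i x => by
    simp [b', p, dropCoord_apply]
  have hb : ∀ i : {i // i ≠ i₀}, p (b i) = b' i := dropCoord_basis b i₀
  have hp0 : p (b i₀) = 0 := by rw [← LinearMap.mem_ker, ker_dropCoord]; exact self_mem_frame b _
  have hker : ∀ x y, p x = p y → x = y + b.coord i₀ (x - y) • b i₀ := fun x y hxy => by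
    have : x - y ∈ frame b i₀ := by
      rw [← ker_dropCoord, LinearMap.mem_ker, map_sub]; exact sub_eq_zero.2 hxy
    have := (basisDec b).self this
    rw [basisDec_π] at this
    rw [this]; abel
  have hst : ∀ g : V ≃ₗ[F] V, g (b i₀) ∈ frame b i₀ → g ∈ stab (LinearMap.ker p) := fun g hg => by
    rw [ker_dropCoord]
    refine mem_stab_of_mapsTo fun x hx => ?_
    obtain ⟨c, rfl⟩ := mem_frame.1 hx
    rw [map_smul]; exact Submodule.smul_mem _ _ hg
  obtain ⟨y, hy⟩ := exists_quot p hp (hst h h0)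
  obtain ⟨μ, hμ⟩ := mem_frame.1 h0
  have hμ0 : μ ≠ 0 := fun h1 => b.ne_zero i₀ (by rw [← h.map_eq_zero_iff, ← hμ, h1, zero_smul])
  by_cases hy' : y ∈ dstab (frame b')
  · obtain ⟨σ, hσ⟩ := exists_of_mem_dstab_frame hy'
    let ψ : Dual F V := μ⁻¹ • (μ • b.coord i₀ - b.coord i₀ ∘ₗ (h : V →ₗ[F] V))
    have hψ : ∀ x, ψ x = μ⁻¹ * (μ * b.coord i₀ x - b.coord i₀ (h x)) := fun x => rfl
    have hψ0 : ψ (b i₀) = 0 := by rw [hψ, ← hμ]; simp
    have hm : ∀ i, i ≠ i₀ → ∃ j, h (b i) + (μ * ψ (b i)) • b i₀ ∈ frame b j := fun i hi => by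
      obtain ⟨c, -, hc'⟩ := hσ ⟨i, hi⟩
      rw [← hb, hy, ← hb, ← map_smul] at hc'
      refine ⟨σ ⟨i, hi⟩, mem_frame.2 ⟨c, ?_⟩⟩
      have e := hker _ _ hc'
      rw [map_sub, map_smul, coord_ne b (σ _).2.symm] at e
      rw [hψ, coord_ne b hi.symm, mul_inv_cancel_left₀ hμ0]
      linear_combination (norm := module) -e
    have hf : h * tv (b i₀) ψ hψ0 ∈ H := hH ⟨mem_dstab_frame fun i => by
      by_cases hi : i = i₀
      · exact ⟨i₀, by rw [hi, le_mul_apply, tv_apply, hψ0, zero_smul, add_zero]; exact h0⟩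
      · rw [le_mul_apply, tv_apply, map_add, map_smul, ← hμ, smul_smul, mul_comm]
        exact hm i hi, (SLV F V).mul_mem (hS hh) (tv_mem_SLV _ _ _)⟩
    rw [H.mul_mem_cancel_left hh] at hf
    obtain ⟨k, hk⟩ : ∃ k, ψ (b k) ≠ 0 := by
      by_contra hc
      push Not at hc
      refine hh' (mem_dstab_frame fun i => ?_)
      by_cases hi : i = i₀
      · exact ⟨i₀, hi ▸ h0⟩
      · simpa [hc] using hm i hi
    exact SLV_le_of_t1 h4 ha0 ha1 hH (t1_of_tv hψ0 hf) hψ0 hk
  have h3 : 3 ≤ Fintype.card {i // i ≠ i₀} := by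
    rw [Fintype.card_subtype_compl, Fintype.card_subtype_eq]; omega
  obtain ⟨i, k, c, hik, hc0, ht⟩ := exists_t1_of_mono (H := quotGrp p hp H) hq h3 b'
    (fun i c hc1 => by
      have h1 : 1 + c ≠ 0 := fun h => hc1 (by linear_combination h)
      obtain ⟨d, hd, hdf⟩ := exists_dg b i.2 h1
      refine has_quot hp (hH hd) (hst d (by
        rw [hdf, coord_ne b i.2, mul_zero, zero_smul, add_zero]
        exact Submodule.add_mem _ (self_mem_frame b _)
          (Submodule.smul_mem _ _ (self_mem_frame b _)))) fun x => ?_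
      simp only [hdf, map_add, map_smul, hp0, hb, LinearMap.smul_apply, hc, smul_eq_mul, smul_zero,
        add_zero, add_sub_cancel_left])
    (fun i j c hij hc0 => by
      have hij' : (i : ι) ≠ j := Subtype.coe_injective.ne hij
      have e1 : 1 + (b.coord i - c⁻¹ • b.coord j) (c • b j - b i) = -1 := by
        simp only [LinearMap.sub_apply, LinearMap.smul_apply, map_sub, map_smul, coord_self,
          coord_ne b hij', coord_ne b hij'.symm, smul_eq_mul]
        field_simp; ring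
      have e2 : 1 + (b.coord i - c⁻¹ • b.coord j) (c • b j - b i) ≠ 0 := by rw [e1]; simp
      obtain ⟨g1, s1, d1, f1⟩ := dil_frame b i₀ (a := -1) (by simp)
      have hm : dil _ _ e2 ∈ dstab (frame b) := mem_dstab_frame fun l => by
        rw [dil_apply]
        by_cases hli : l = i
        · refine ⟨j, mem_frame.2 ⟨c, ?_⟩⟩
          simp [hli, hij'.symm]
        by_cases hlj : l = j
        · refine ⟨i, mem_frame.2 ⟨c⁻¹, ?_⟩⟩
          simp only [hlj, LinearMap.sub_apply, LinearMap.smul_apply, coord_self, coord_ne b hij',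
            smul_eq_mul]
          match_scalars <;> field_simp <;> ring
        · exact ⟨l, by simpa [Ne.symm hli, Ne.symm hlj] using self_mem_frame b l⟩
      refine has_quot hp (g := dil _ _ e2 * g1) (hH ⟨(dstab _).mul_mem hm (mem_dstab_of_stab s1),
        mem_SLV.2 (by rw [det_mul', det_dil, e1, d1]; simp)⟩) (hst _ (by
          rw [le_mul_apply, dil_apply, f1]
          simp only [LinearMap.sub_apply, LinearMap.smul_apply, map_add, map_smul, coord_ne b i.2,
            coord_ne b j.2, smul_zero, add_zero, sub_zero, zero_smul]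
          exact Submodule.add_mem _ (self_mem_frame b _)
            (Submodule.smul_mem _ _ (self_mem_frame b _)))) fun x => ?_
      simp only [le_mul_apply, dil_apply, f1, map_add, map_smul, map_sub, hp0, hb,
        LinearMap.smul_apply, LinearMap.sub_apply, hc, smul_zero, add_zero, coord_ne b i.2,
        coord_ne b j.2, sub_zero, zero_smul])
    (g := y) ⟨h, hh, hy⟩ hy'
  obtain ⟨y1, ⟨g, hg, hgy⟩, hy1⟩ := ht.exists
  have hik' : (i : ι) ≠ k := Subtype.coe_injective.ne hik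
  let χ : Dual F V := b.coord i₀ ∘ₗ (g : V →ₗ[F] V) - b.coord i₀
  have hgf : ∀ x, g x = x + (c * b.coord k x) • b i + χ x • b i₀ := fun x => by
    have : p (g x) = p (x + (c * b.coord k x) • b i) := by
      rw [← hgy, hy1, map_add, map_smul, hb, LinearMap.smul_apply, hc, smul_eq_mul]
    have e := hker _ _ this
    rw [map_sub, map_add, map_smul, coord_ne b i.2.symm, smul_zero, add_zero] at e
    exact e
  have hg0 : g (b i₀) = (1 + χ (b i₀)) • b i₀ := by
    rw [hgf, coord_ne b k.2]; module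
  have hν : 1 + χ (b i₀) ≠ 0 := fun h1 =>
    b.ne_zero i₀ (by rw [← g.map_eq_zero_iff, hg0, h1, zero_smul])
  by_cases hχ : ∃ m, m ≠ i₀ ∧ χ (b m) ≠ 0
  · obtain ⟨m, hm, hχm⟩ := hχ
    obtain ⟨l, hl⟩ := exists_not_mem_list [i₀, i, k, m] (by simp; omega)
    simp only [List.mem_cons, List.not_mem_nil, or_false, not_or] at hl
    obtain ⟨d, hd, hdf⟩ := exists_dg b (Ne.symm hl.1) ha0
    let ψ : Dual F V := ((1 + χ (b i₀)) * a)⁻¹ • (χ ∘ₗ (d : V →ₗ[F] V) - a • χ)
    have hψ : ∀ x, ψ x = ((1 + χ (b i₀)) * a)⁻¹ * (χ (d x) - a * χ x) := fun x => rfl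
    have hd0 : d (b i₀) = a • b i₀ := by rw [hdf, coord_self, coord_ne b hl.1]; module
    have hdi : d (b i) = b i := by rw [hdf, coord_ne b hl.2.1, coord_ne b i.2.symm]; module
    have hdk : ∀ x, b.coord k (d x) = b.coord k x := fun x => by
      simp [hdf, k.2, Ne.symm hl.2.2.1]
    refine SLV_le_of_t1 h4 ha0 ha1 hH (r := i₀) (ψ := ψ) (k := m) ⟨(d * g)⁻¹ * (g * d),
      H.mul_mem (H.inv_mem (H.mul_mem (hH hd) hg)) (H.mul_mem hg (hH hd)), fun x => ?_⟩ ?_ ?_
    · apply (d * g).injective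
      rw [le_mul_apply _ (g * d), le_apply_inv, le_mul_apply, le_mul_apply, map_add, map_smul, hg0,
        hgf x, hgf (d x), hdk]
      simp only [map_add, map_smul, hd0, hdi, hψ]
      match_scalars <;> field_simp <;> ring
    · rw [hψ, hd0, map_smul, smul_eq_mul, sub_self, mul_zero]
    · rw [hψ, hdf, coord_ne b hm.symm, coord_ne b hl.2.2.2]
      simp only [mul_zero, zero_smul, add_zero]
      refine mul_ne_zero (inv_ne_zero (mul_ne_zero hν ha0)) fun h => ?_
      exact mul_ne_zero (sub_ne_zero.2 ha1.symm) hχm (by linear_combination h)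
  · push Not at hχ
    obtain ⟨l, hl⟩ := exists_not_mem_list [i₀, i, k] (by simp; omega)
    simp only [List.mem_cons, List.not_mem_nil, or_false, not_or] at hl
    obtain ⟨d, hd, hdf⟩ := exists_dg b (Ne.symm hl.2.2) ha0
    have hd0 : d (b i₀) = b i₀ := by rw [hdf, coord_ne b k.2, coord_ne b hl.1]; module
    have hdi : d (b i) = b i := by rw [hdf, coord_ne b hl.2.1, coord_ne b hik'.symm]; module
    have hgi : g (b i) = b i := by rw [hgf, coord_ne b hik'.symm, hχ i i.2]; module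
    have hdk : ∀ x, b.coord k (d x) = a * b.coord k x := fun x => by
      simp [hdf, Ne.symm hl.2.2]; ring
    have hχd : ∀ x, χ (d x) = χ x := fun x => by simp only [hdf, map_add, map_smul, hχ k k.2,
      hχ l hl.1, smul_zero, add_zero]
    refine SLV_le_of_t1 h4 ha0 ha1 hH (r := i) (ψ := ((a - 1) * c) • b.coord k) (k := k)
      ⟨(d * g)⁻¹ * (g * d), H.mul_mem (H.inv_mem (H.mul_mem (hH hd) hg)) (H.mul_mem hg (hH hd)),
        fun x => ?_⟩ ?_ ?_
    · apply (d * g).injective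
      rw [le_mul_apply _ (g * d), le_apply_inv, le_mul_apply, le_mul_apply, map_add, map_smul, hgi,
        hgf x, hgf (d x), hdk, hχd]
      simp only [map_add, map_smul, hd0, hdi, LinearMap.smul_apply, smul_eq_mul]
      module
    · simp [hik'.symm]
    · simpa using ⟨sub_ne_zero.2 ha1, hc0⟩

theorem SLV_le_of_mono [Fintype F] (hq : 5 ≤ Fintype.card F) (h8 : 8 ≤ Fintype.card ι)
    (hH : dstab (frame b) ⊓ SLV F V ≤ H) (hS : H ≤ SLV F V) {g : V ≃ₗ[F] V} (hg : g ∈ H)
    (hg' : g ∉ dstab (frame b)) : SLV F V ≤ H := by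
  by_contra hc
  refine hg' (PartHyp.le_dstab ⟨hH, fun h hh i j hij => ?_⟩ hq h8 hg)
  by_contra hh'
  have : Nonempty ι := ⟨i⟩
  obtain ⟨s, hs, hs'⟩ := (basisDec b).exists_perm_SLV
    (fun i j => by rw [finrank_frame, finrank_frame]) (frame_ne_bot b) (Equiv.swap i j)
  refine hc (SLV_le_of_fix hq (by omega) hH hS (H.mul_mem (hH hs) hh) (fun h1 => hh' ?_) (i₀ := i)
    ?_)
  · rwa [(dstab _).mul_mem_cancel_left hs.1] at h1
  · have := hs' j _ hij
    rwa [Equiv.swap_apply_right] at this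

/-- A decomposition into lines is the frame of a basis. -/
theorem exists_basis_frame {D : ι → Submodule F V} (d : Dec D) (h1 : ∀ i, finrank F (D i) = 1) :
    ∃ b : Basis ι F V, frame b = D := by
  have : ∀ i, ∃ v, v ≠ 0 ∧ Submodule.span F {v} = D i := fun i => by
    obtain ⟨v, hv, hv0⟩ := Submodule.exists_mem_ne_zero_of_ne_bot
      (ne_bot_of_finrank_pos (by rw [h1 i]; exact one_pos))
    exact ⟨v, hv0, Submodule.eq_of_le_of_finrank_le
      ((Submodule.span_singleton_le_iff_mem _ _).2 hv) (by rw [h1, finrank_span_singleton hv0])⟩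
  choose v hv0 hv using this
  have hm : ∀ i, v i ∈ D i := fun i => hv i ▸ Submodule.mem_span_singleton_self _
  have hli : LinearIndependent F v := by
    rw [Fintype.linearIndependent_iff]
    intro c hc i
    have := congrArg (d.π i) hc
    rw [map_sum, Finset.sum_eq_single i (fun j _ hj => by
      rw [map_smul, d.ne hj.symm (hm j), smul_zero]) (by simp), map_smul, d.self (hm i),
      map_zero] at this
    exact (smul_eq_zero.1 this).resolve_right (hv0 i)
  refine ⟨Basis.mk hli (d.submodule_eq_top fun i => ?_).ge, funext fun i => by simp [frame, hv]⟩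
  rw [← hv]
  exact Submodule.span_mono (by simp)

theorem isMaximalIn_dstab_SLV [Fintype F] {D : ι → Submodule F V} (hi : iSupIndep D)
    (ht : iSup D = ⊤) {m : ℕ} (hm : ∀ i, finrank F (D i) = m) (h0 : 0 < m)
    (h2 : 2 ≤ Fintype.card ι) (h1 : m = 1 → 5 ≤ Fintype.card F ∧ 8 ≤ Fintype.card ι)
    (hq : m = 2 → ((∃ a : F, a ≠ 0 ∧ a ≠ 1) ∧ 3 ≤ Fintype.card ι) ∨ ∃ a : F, a ≠ 0 ∧ a * a ≠ 1) :
    IsMaximalIn (SLV F V) (dstab D ⊓ SLV F V) := by
  obtain ⟨d⟩ := exists_dec hi ht
  have : Nontrivial ι := Fintype.one_lt_card_iff_nontrivial.1 h2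
  refine isMaximalIn_of inf_le_right ?_ fun M hM hM' g hg hg' => ?_
  · obtain ⟨i, j, hij⟩ := exists_pair_ne ι
    obtain ⟨g, hg, hg'⟩ := d.exists_SLV_not_mem_dstab hij fun i =>
      ne_bot_of_finrank_pos (by rw [hm]; exact h0)
    exact ⟨g, hg, fun h => hg' h.1⟩
  · have hg'' : g ∉ dstab D := fun h => hg' ⟨h, hM' hg⟩
    by_cases hm1 : m = 1
    · obtain ⟨b, rfl⟩ := exists_basis_frame d (hm1 ▸ hm)
      exact SLV_le_of_mono (h1 hm1).1 (h1 hm1).2 hM hM' hg hg''
    · exact d.SLV_le_of_dstab hm (by omega) hq hM hg hg''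

theorem Dec.finrank_eq {D : ι → Submodule F V} (hi : iSupIndep D) (ht : iSup D = ⊤) {m : ℕ}
    (hm : ∀ i, finrank F (D i) = m) : finrank F V = Fintype.card ι * m := by
  have hint := DirectSum.isInternal_submodule_of_iSupIndep_of_iSup_eq_top hi ht
  rw [← (LinearEquiv.ofBijective (DirectSum.coeLinearMap D) hint).finrank_eq,
    Module.finrank_directSum]
  simp [hm]

end Cfsg.Agent.H27
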