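import Cfsg.Agent.H27.OPlane2
import Cfsg.Agent.H27.MonoSL3

/-!
Orthonormal frames: coordinates, sign changes and the involution argument.
-/

set_option autoImplicit false
set_option linter.unusedSectionVars false

namespace Cfsg.Agent.H27

open Module Cfsg.Geo QuadraticMap H11
open scoped symmDiff

variable {F V : Type*} [Field F] [AddCommGroup V] [Module F V] [FiniteDimensional F V] [Finite F]
variable {ι : Type*} [Fintype ι] [DecidableEq ι]
variable {Q : QuadraticForm F V} {b : Basis ι F V} {H : Subgroup (V ≃ₗ[F] V)}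

/-- The sign change at the coordinates in `S`. -/
noncomputable def sg (b : Basis ι F V) (S : Finset ι) : V ≃ₗ[F] V :=
  LinearEquiv.ofInvolutive (b.constr F fun i => if i ∈ S then -b i else b i) fun x => by
    have : (b.constr F fun i => if i ∈ S then -b i else b i) ∘ₗ
        (b.constr F fun i => if i ∈ S then -b i else b i) = LinearMap.id :=
      b.ext fun i => by
        by_cases h : i ∈ S <;> simp [h, -Basis.constr_apply_fintype, Basis.constr_basis]
    exact LinearMap.congr_fun this x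

theorem sg_b (S : Finset ι) (i : ι) : sg b S (b i) = if i ∈ S then -b i else b i :=
  b.constr_basis F _ i

theorem sg_repr (S : Finset ι) (x : V) (i : ι) :
    b.repr (sg b S x) i = if i ∈ S then -b.repr x i else b.repr x i := by
  have : b.coord i ∘ₗ (sg b S).toLinearMap = if i ∈ S then -b.coord i else b.coord i :=
    b.ext fun j => by
      by_cases h : i ∈ S <;> by_cases h' : j ∈ S <;> by_cases e : j = i <;>
        simp_all [sg_b]
  have := LinearMap.congr_fun this x
  by_cases h : i ∈ S <;> simpa [h] using this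

theorem lequiv_ext {g h : V ≃ₗ[F] V} (b : Basis ι F V) (e : ∀ i, g (b i) = h (b i)) : g = h :=
  LinearEquiv.toLinearMap_injective (b.ext e)

theorem sg_mul (S T : Finset ι) : sg b S * sg b T = sg b (S ∆ T) := lequiv_ext b fun i => by
  by_cases h : i ∈ S <;> by_cases h' : i ∈ T <;> simp [sg_b, h, h', Finset.mem_symmDiff]

theorem sg_empty : sg b ∅ = 1 := lequiv_ext b fun i => by simp [sg_b]

theorem sg_sq (S : Finset ι) : sg b S * sg b S = 1 := by rw [sg_mul, symmDiff_self]; exact sg_empty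

theorem sg_mem_dstab (S : Finset ι) : sg b S ∈ dstab (frame b) := mem_dstab_frame fun i =>
  ⟨i, by
    rw [sg_b]; split_ifs
    exacts [Submodule.neg_mem _ (self_mem_frame b i), self_mem_frame b i]⟩

theorem repr_of_mem_frame {x : V} {i j : ι} (h : x ∈ frame b i) (hj : j ≠ i) : b.repr x j = 0 := by
  obtain ⟨c, rfl⟩ := mem_frame.1 h
  simp [hj.symm]

theorem sg_conj {n : V ≃ₗ[F] V} (hn : n ∈ dstab (frame b)) {I : Finset ι}
    (out : ∀ j ∉ I, n (b j) ∈ frame b j) {S : Finset ι} (hS : S ⊆ I) :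
    ∃ S' ⊆ I, S'.card = S.card ∧ n * sg b S * n⁻¹ = sg b S' := by
  obtain ⟨σ, hσ⟩ := exists_of_mem_dstab_frame hn
  refine ⟨S.map σ.toEmbedding, fun j hj => ?_, by simp, ?_⟩
  · obtain ⟨i, hi, rfl⟩ := Finset.mem_map.1 hj
    by_contra h
    obtain ⟨c, c0, hc⟩ := hσ (σ i)
    have h1 : σ (σ i) = σ i := by
      by_contra h1
      have := repr_of_mem_frame (out _ h) h1
      erw [hc] at this
      simp [c0] at this
    exact h (by simpa [σ.injective h1] using hS hi)
  · rw [mul_inv_eq_iff_eq_mul]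
    refine lequiv_ext b fun i => ?_
    obtain ⟨c, -, hc⟩ := hσ i
    by_cases h : i ∈ S <;> simp [sg_b, h, hc]

theorem exists_cent1 {z : V ≃ₗ[F] V} (hz : z ∈ dstab (frame b)) (z2 : z * z = 1) {I : Finset ι}
    (out : ∀ j ∉ I, z (b j) ∈ frame b j) (L : List (Dual F V)) (hL : 2 * L.length < I.card)
    (h : ∀ x, (∀ φ ∈ L, φ x = 0) → z x = x) : ∃ i ∈ I, z (b i) = b i := by
  obtain ⟨σ, hσ⟩ := exists_of_mem_dstab_frame hz
  choose c c0 hc using hσ
  have σ2 : ∀ i, σ (σ i) = i := fun i => by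
    by_contra hne
    have := congrArg (fun x => b.repr x i) (LinearEquiv.congr_fun z2 (b i))
    simp [hc, hne] at this
  have σI : ∀ i ∈ I, σ i ∈ I := fun i hi => by
    by_contra hn
    have h1 : σ (σ i) = σ i := by
      by_contra h1
      simpa [hc, c0] using repr_of_mem_frame (out _ hn) h1
    exact hn (by rwa [σ.injective h1])
  let n := Fintype.equivFin ι
  let J := I.filter fun i => n i ≤ n (σ i)
  have hJ : I.card ≤ 2 * J.card := by
    have h1 := Finset.card_filter_add_card_filter_not (s := I) fun i => n i ≤ n (σ i)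
    have h2 : (I.filter fun i => ¬ n i ≤ n (σ i)).card ≤ J.card :=
      Finset.card_le_card_of_injOn σ (fun i hi => by
        simp only [J, Finset.coe_filter, Set.mem_ofPred_eq, not_le] at hi ⊢
        exact ⟨σI i hi.1, by rw [σ2]; exact hi.2.le⟩) σ.injective.injOn
    change J.card + _ = _ at h1
    omega
  obtain ⟨a, -, a1, a2⟩ := exists_ker_list
    (L.map (· ∘ₗ Fintype.linearCombination F fun j : J => b j))
    (W := (⊤ : Submodule F (J → F))) (S := ⊥) (by simp; omega)
  have h1 := h _ fun φ hφ => a1 _ (List.mem_map_of_mem hφ)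
  obtain ⟨i, hi⟩ : ∃ i, a i ≠ 0 := Function.ne_iff.1 a2
  have h2 := congrArg (fun x => b.repr x (σ i)) h1
  simp only [Fintype.linearCombination_apply, map_sum, map_smul, hc, Basis.repr_self,
    Finsupp.coe_finsetSum, Finset.sum_apply, Finsupp.smul_apply, Finsupp.single_apply,
    EmbeddingLike.apply_eq_iff_eq, smul_eq_mul, mul_ite, mul_one, mul_zero,
    Subtype.coe_inj, Finset.sum_ite_eq', Finset.mem_univ, if_true] at h2
  have h3 : σ i ∈ J := by
    by_contra hn
    rw [Finset.sum_eq_zero fun j _ => if_neg (by rintro e; exact hn (e ▸ j.2))] at h2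
    exact mul_ne_zero hi (c0 i) h2
  have h4 : σ i = i := by
    have e1 := (Finset.mem_filter.1 h3).2
    rw [σ2] at e1
    exact n.injective (le_antisymm e1 (Finset.mem_filter.1 i.2).2)
  simp only [h4, Subtype.coe_inj, Finset.sum_ite_eq', Finset.mem_univ, if_true] at h2
  refine ⟨i, (Finset.mem_filter.1 i.2).1, ?_⟩
  rw [hc, h4, mul_left_cancel₀ hi (h2.trans (mul_one _).symm), one_smul]

/-- An orthonormal basis in odd characteristic. -/
structure Fr (Q : QuadraticForm F V) (b : Basis ι F V) : Prop where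
  two : (2 : F) ≠ 0
  one : ∀ i, Q (b i) = 1
  orth : ∀ i j, i ≠ j → pB Q (b i) (b j) = 0

namespace Fr

variable (S : Fr Q b)
include S

theorem pB_b (i : ι) (x : V) : pB Q (b i) x = 2 * b.repr x i := by
  have : pB Q (b i) = (2 : F) • b.coord i := b.ext fun j => by
    by_cases h : i = j
    · subst h; simp [pB_self, S.one]
    · simp [S.orth i j h, Ne.symm h]
  simp [this]

theorem pB_b' (i : ι) (x : V) : pB Q x (b i) = 2 * b.repr x i := by rw [pB_comm, S.pB_b]

theorem pB_sum (x y : V) : pB Q x y = 2 * ∑ i, b.repr x i * b.repr y i := by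
  conv_lhs => rw [← b.sum_repr x, map_sum]
  simp only [map_smul, LinearMap.sum_apply, LinearMap.smul_apply, S.pB_b, Finset.mul_sum,
    smul_eq_mul, mul_left_comm]

theorem Q_sum (x : V) : Q x = ∑ i, b.repr x i * b.repr x i :=
  mul_left_cancel₀ S.two (by rw [← pB_self, S.pB_sum])

theorem nd : ND Q := fun x hx => b.ext_elem fun i => by
  have := hx (b i)
  rw [← pB_eq, S.pB_b'] at this
  simpa [S.two] using this

theorem repr_eq_zero {x : V} {i : ι} (h : pB Q (b i) x = 0) : b.repr x i = 0 := by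
  simpa [S.pB_b, S.two] using h

theorem rE_b (i : ι) : rE Q (b i) = sg b {i} := lequiv_ext b fun j => by
  by_cases h : j = i
  · subst h; simp [sg_b, rE_self, S.one]
  · simp [sg_b, h, rE_of_perp (S.orth i j (Ne.symm h))]

theorem sg_mem (T : Finset ι) : sg b T ∈ OG Q := fun x => by
  rw [S.Q_sum, S.Q_sum]
  refine Finset.sum_congr rfl fun i _ => ?_
  rw [sg_repr]; split_ifs <;> simp

omit S in
theorem sg_insert {i : ι} {T : Finset ι} (h : i ∉ T) : sg b (insert i T) = sg b {i} * sg b T := by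
  rw [sg_mul]; congr 1; ext j; by_cases e : j = i <;> simp [Finset.mem_symmDiff, e, h]

theorem sg_mem_of_refl {I : Finset ι} (h : ∀ i ∈ I, rE Q (b i) ∈ H) {T : Finset ι} (hT : T ⊆ I) :
    sg b T ∈ H := by
  induction T using Finset.induction_on with
  | empty => rw [sg_empty]; exact H.one_mem
  | insert i T hi ih =>
    rw [sg_insert hi, ← S.rE_b]
    exact H.mul_mem (h i (hT (by simp))) (ih fun j hj => hT (by simp [hj]))

theorem sg_mem_of_even (h : ∀ i j, rE Q (b i) * rE Q (b j) ∈ H) (T : Finset ι) :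
    (Even T.card → sg b T ∈ H) ∧ (Odd T.card → ∀ i, rE Q (b i) * sg b T ∈ H) := by
  induction T using Finset.induction_on with
  | empty => rw [sg_empty]; simp
  | insert i T hi ih =>
    rw [sg_insert hi, ← S.rE_b, Finset.card_insert_of_notMem hi]
    refine ⟨fun h1 => ih.2 (by simpa [parity_simps] using h1) i, fun h1 j => ?_⟩
    rw [← mul_assoc]
    exact H.mul_mem (h _ _) (ih.1 (by simpa [parity_simps] using h1))

theorem repr_of_fix {T : Finset ι} {x : V} (h : sg b T x = x) {i : ι} (hi : i ∈ T) :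
    b.repr x i = 0 := by
  have := sg_repr (b := b) T x i
  rw [h, if_pos hi] at this
  exact (mul_eq_zero.1 (show 2 * b.repr x i = 0 by linear_combination this)).resolve_left S.two

theorem repr_of_neg {T : Finset ι} {x : V} (h : sg b T x = -x) {i : ι} (hi : i ∉ T) :
    b.repr x i = 0 := by
  have := sg_repr (b := b) T x i
  rw [h, if_neg hi, map_neg, Finsupp.neg_apply] at this
  exact (mul_eq_zero.1 (show 2 * b.repr x i = 0 by linear_combination -this)).resolve_left S.two

omit S in
theorem sg_fix {T : Finset ι} {x : V} (h : ∀ i ∈ T, b.repr x i = 0) : sg b T x = x :=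
  b.ext_elem fun i => by
    rw [sg_repr]; split_ifs with hi
    · simp [h i hi]
    · rfl

/-- The involution argument for frames. -/
theorem ph_core (hK : H ≤ OG Q) {I : Finset ι} {r : ℕ} (hr : 0 < r) (hI : 4 * r < I.card)
    (out : ∀ g ∈ H, ∀ j ∉ I, g (b j) ∈ frame b j)
    (hS : ∀ T ⊆ I, (T.card = r ∨ T.card = 2 * r) → sg b T ∈ H)
    (CA : ∀ g ∈ H, ∀ k ∈ I, ∀ T ⊆ I, T.card = r → (∀ i ∈ T, b.repr (g (b k)) i = 0) →
      g ∈ dstab (frame b)) {g : V ≃ₗ[F] V} (hg : g ∈ H) : g ∈ dstab (frame b) := by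
  have := finite_lequiv (F := F) (V := V)
  obtain ⟨Y, hY, cY⟩ := Finset.exists_subset_card_eq (s := I) (n := r) (by omega)
  obtain ⟨W, hW, cW⟩ := Finset.exists_subset_card_eq (s := I) (n := 2 * r) (by omega)
  have U : ∀ T ⊆ I, (T.card = r ∨ T.card = 2 * r) → ∀ h ∈ H,
      h * sg b T * h⁻¹ ∈ dstab (frame b) → h ∈ dstab (frame b) := by
    intro T hT cT h hh h1
    have hz := H.mul_mem (H.mul_mem hh (hS T hT cT)) (H.inv_mem hh)
    obtain ⟨i, hi, h2⟩ := exists_cent1 h1 (by simp [mul_assoc, ← mul_assoc (sg b T), sg_sq])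
      (out _ hz) (T.toList.map fun t => pB Q (h (b t))) (by simp; omega) fun x hx => by
        rw [le_mul_apply, le_mul_apply, sg_fix fun t ht => S.repr_eq_zero (by
          rw [← OG_pB (hK hh), le_apply_inv]
          exact hx _ (List.mem_map_of_mem (by simpa using ht))), le_apply_inv]
    obtain ⟨T', hT', cT'⟩ := Finset.exists_subset_card_eq (s := T) (n := r) (by omega)
    refine (Subgroup.inv_mem_iff _).1 (CA _ (H.inv_mem hh) i hi T' (hT'.trans hT) cT'
      fun t ht => S.repr_of_fix (T := T) (h.injective ?_) (hT' ht))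
    rw [le_apply_inv]; exact h2
  have hy := hS Y hY (Or.inl cY)
  have hw := hS W hW (Or.inr cW)
  obtain ⟨z, z1, ⟨n, hn, nN, z2⟩, n', hn', nN', z3⟩ := inv_trick (N := dstab (frame b)) hy hw hg
    (sg_sq Y) (sg_sq W) (sg_mem_dstab Y) (sg_mem_dstab W) (U Y hY (Or.inl cY))
    (U W hW (Or.inr cW)) fun n hn nN h => by
      obtain ⟨T, -, cT, e⟩ := sg_conj nN (out n hn) hY
      obtain ⟨i, hi, hi'⟩ := Finset.exists_mem_notMem_of_card_lt_card (s := T) (t := W) (by omega)
      have := S.repr_of_fix (T := W) (x := b i) (by rw [← h, e, sg_b, if_neg hi']) hi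
      simp at this
  obtain ⟨T, cT, z4⟩ : ∃ T : Finset ι, T.card ≤ 2 * r ∧ z * sg b Y = sg b T := by
    rcases z2 with z2 | z2
    · obtain ⟨T, -, cT, e⟩ := sg_conj nN (out n hn) hY
      exact ⟨T, by omega, z2.trans e⟩
    · obtain ⟨T, -, cT, e⟩ := sg_conj nN (out n hn) hW
      exact ⟨T, by omega, z2.trans e⟩
  obtain ⟨T', hT', z5⟩ : ∃ T' ⊆ I, g⁻¹ * z * g * sg b W = sg b T' := by
    rcases z3 with z3 | z3
    · obtain ⟨T, hT, -, e⟩ := sg_conj nN' (out n' hn') hY
      exact ⟨T, hT, z3.trans e⟩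
    · obtain ⟨T, hT, -, e⟩ := sg_conj nN' (out n' hn') hW
      exact ⟨T, hT, z3.trans e⟩
  have z6 : z = sg b (T ∆ Y) := by rw [← sg_mul, ← z4, mul_assoc, sg_sq, mul_one]
  have z7 : g⁻¹ * z * g = sg b (T' ∆ W) := by rw [← sg_mul, ← z5, mul_assoc _ (sg b W), sg_sq, mul_one]
  obtain ⟨t, ht⟩ : (T' ∆ W).Nonempty := by
    rw [Finset.nonempty_iff_ne_empty]
    intro h
    rw [h, sg_empty] at z7
    exact z1 (by simpa [mul_assoc, inv_mul_eq_one] using z7)
  obtain ⟨R, hR, cR⟩ := Finset.exists_subset_card_eq (s := I \ (T ∪ Y)) (n := r) (by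
    have := Finset.le_card_sdiff (T ∪ Y) I
    have := Finset.card_union_le T Y
    omega)
  refine CA g hg t ((Finset.mem_symmDiff.1 ht).elim (fun h => hT' h.1) fun h => hW h.1) R
    (hR.trans Finset.sdiff_subset) cR fun i hi => S.repr_of_neg (T := T ∆ Y) ?_ ?_
  · have := LinearEquiv.congr_fun z7 (b t)
    rw [sg_b, if_pos ht, le_mul_apply, le_mul_apply] at this
    rw [← z6, ← map_neg, ← this, le_apply_inv]
  · have := hR hi
    simp only [Finset.mem_sdiff, Finset.mem_union, not_or] at this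
    simp [Finset.mem_symmDiff, this]

end Fr

end Cfsg.Agent.H27
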