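import Cfsg.Agent.H27.OFr1

/-!
Orthonormal frames: elements with vanishing coordinates are monomial.
-/

set_option autoImplicit false
set_option linter.unusedSectionVars false

namespace Cfsg.Agent.H27

open Module Cfsg.Geo QuadraticMap H11

variable {F V : Type*} [Field F] [AddCommGroup V] [Module F V] [FiniteDimensional F V] [Finite F]
variable {ι : Type*} [Fintype ι] [DecidableEq ι]
variable {Q : QuadraticForm F V} {b : Basis ι F V} {H : Subgroup (V ≃ₗ[F] V)}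

/-- Vectors with exactly two non-zero coordinates. -/
def W2 (b : Basis ι F V) (x : V) (k m : ι) : Prop :=
  k ≠ m ∧ b.repr x k ≠ 0 ∧ b.repr x m ≠ 0 ∧ ∀ t, t ≠ k → t ≠ m → b.repr x t = 0

theorem w2_of {x : V} {k m : ι} (h : ∀ t, t ≠ k → t ≠ m → b.repr x t = 0)
    (h' : ∀ l, x ∉ frame b l) : W2 b x k m := by
  refine ⟨?_, fun h1 => h' m (mem_frame_of_coord fun t ht => ?_),
    fun h1 => h' k (mem_frame_of_coord fun t ht => ?_), h⟩
  · rintro rfl
    exact h' k (mem_frame_of_coord fun t ht => h t ht ht)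
  · by_cases e : t = k
    · rw [e]; exact h1
    · exact h t e ht
  · by_cases e : t = m
    · rw [e]; exact h1
    · exact h t ht e

/-- Elements mapping a frame vector with index in `I` into the frame are monomial. -/
def PartI (b : Basis ι F V) (H : Subgroup (V ≃ₗ[F] V)) (I : Finset ι) : Prop :=
  ∀ g ∈ H, ∀ k ∈ I, ∀ l, g (b k) ∈ frame b l → g ∈ dstab (frame b)

theorem PartI.fix {I : Finset ι} (P : PartI b H I) {g : V ≃ₗ[F] V} (hg : g ∈ H) {k : ι} (hk : k ∈ I)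
    (h : g (b k) = b k) : g ∈ dstab (frame b) := P g hg k hk k (h.symm ▸ self_mem_frame b k)

namespace Fr

variable (S : Fr Q b)
include S

theorem pB_two {x : V} {k m : ι} (hkm : k ≠ m) (h : ∀ t, t ≠ k → t ≠ m → b.repr x t = 0) (y : V) :
    pB Q x y = 2 * (b.repr x k * b.repr y k + b.repr x m * b.repr y m) := by
  rw [S.pB_sum, Finset.sum_eq_add_of_mem k m (by simp) (by simp) hkm fun t _ ht => by
    rw [h t ht.1 ht.2, zero_mul]]

theorem Q_two {x : V} {k m : ι} (hkm : k ≠ m) (h : ∀ t, t ≠ k → t ≠ m → b.repr x t = 0) :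
    Q x = b.repr x k * b.repr x k + b.repr x m * b.repr x m :=
  mul_left_cancel₀ S.two (by rw [← pB_self, S.pB_two hkm h])

theorem Q_sub_b {i j : ι} (h : i ≠ j) : Q (b i - b j) = 2 := by
  rw [Qsub, S.one, S.one, S.orth i j h]; norm_num

theorem repr_symm {g : V ≃ₗ[F] V} (hg : g ∈ OG Q) (i j : ι) :
    b.repr (g (b i)) j = b.repr (g⁻¹ (b j)) i :=
  mul_left_cancel₀ S.two (by rw [← S.pB_b', ← S.pB_b, ← OG_pB hg (b i), le_apply_inv])

theorem sup_of_refl {x : V} (hx : Q x ≠ 0) (h : rE Q x ∈ dstab (frame b)) :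
    ∃ k m, ∀ t, t ≠ k → t ≠ m → b.repr x t = 0 := by
  obtain ⟨σ, hσ⟩ := exists_of_mem_dstab_frame h
  obtain ⟨k, hk⟩ : ∃ k, b.repr x k ≠ 0 := by
    by_contra h1
    push Not at h1
    exact hx (by simp [S.Q_sum, h1])
  obtain ⟨c, -, hc⟩ := hσ k
  refine ⟨k, σ k, fun t h1 h2 => ?_⟩
  have := congrArg (fun y => b.repr y t) hc
  simpa [rE_apply, S.pB_b', h1.symm, h2.symm, hx, hk, S.two] using this

section T3

variable {I : Finset ι} (hK : H ≤ OG Q) (P : PartI b H I)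
  (hτ : ∀ c ∈ I, ∀ d ∈ I, ∀ e ∈ I, ∀ f ∈ I, c ≠ d → e ≠ f →
    rE Q (b c - b d) * rE Q (b e - b f) ∈ H)
  {g : V ≃ₗ[F] V} (hg : g ∈ H)
include hK P hτ hg

theorem t3_base {i c d e k m : ι} (hi : i ∈ I) (hc : c ∈ I) (hd : d ∈ I) (he : e ∈ I)
    (hcd : c ≠ d) (hde : d ≠ e) (c0 : b.repr (g (b c)) i = 0) (d0 : b.repr (g (b d)) i = 0)
    (e0 : b.repr (g (b e)) i = 0) (w : W2 b (g (b c)) k m) (dk : b.repr (g (b d)) k = 0)
    (dm : b.repr (g (b d)) m = 0) (ek : b.repr (g (b e)) k = 0) : False := by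
  have hz := rr_conj2 hg (hK hg) (hτ c hc d hd d hd e he hcd hde)
  have q1 : Q (g (b c - b d)) = 2 := (hK hg _).trans (S.Q_sub_b hcd)
  have q2 := S.Q_two w.1 w.2.2.2
  rw [hK hg, S.one] at q2
  obtain ⟨σ, hσ⟩ := exists_of_mem_dstab_frame (P.fix hz hi (by
    rw [le_mul_apply, rE_of_perp (v := g (b d - b e)) (by simp [S.pB_b', d0, e0]),
      rE_of_perp (by simp [S.pB_b', c0, d0])]))
  obtain ⟨a, -, ha⟩ := hσ k
  rw [le_mul_apply, rE_of_perp (v := g (b d - b e)) (by simp [S.pB_b', dk, ek]), rE_apply, q1] at ha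
  have h1 := congrArg (fun y => b.repr y k) ha
  have h2 := congrArg (fun y => b.repr y m) ha
  have := S.two
  by_cases h : σ k = k
  · simp [S.pB_b', h, w.1, dm, dk, this, w.2.1, w.2.2.1] at h2
  · simp only [S.pB_b', map_sub, map_smul, Finsupp.sub_apply, Finsupp.smul_apply, dk,
      Basis.repr_self, Finsupp.single_eq_same, Finsupp.single_apply, h, if_false, smul_eq_mul,
      LinearMap.sub_apply] at h1
    field_simp at h1
    exact mul_ne_zero w.2.2.1 w.2.2.1 (by linear_combination h1 - q2)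

omit hK P hτ hg in
theorem w2_disj {x y : V} {k m r s : ι} (hx : W2 b x k m) (hy : W2 b y r s) (h : pB Q x y = 0) :
    (b.repr y k = 0 ∧ b.repr y m = 0) ∨ (b.repr y k ≠ 0 ∧ W2 b y k m) := by
  rw [S.pB_two hx.1 hx.2.2.2, mul_eq_zero, or_iff_right S.two] at h
  by_cases h1 : b.repr y k = 0
  · exact Or.inl ⟨h1, by simpa [h1, hx.2.2.1] using h⟩
  have h2 : b.repr y m ≠ 0 := fun h2 => by simp [h2, h1, hx.2.1] at h
  refine Or.inr ⟨h1, hx.1, h1, h2, fun t t1 t2 => hy.2.2.2 t ?_ ?_⟩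
  all_goals
    rintro rfl
    have a1 := mt (fun h : _ ∧ _ => hy.2.2.2 k h.1 h.2) h1
    have a2 := mt (fun h : _ ∧ _ => hy.2.2.2 m h.1 h.2) h2
    have := hx.1
    grind

theorem t3 {i c d e : ι} (hi : i ∈ I) (hc : c ∈ I) (hd : d ∈ I) (he : e ∈ I)
    (hcd : c ≠ d) (hde : d ≠ e) (hce : c ≠ e) (c0 : b.repr (g (b c)) i = 0)
    (d0 : b.repr (g (b d)) i = 0) (e0 : b.repr (g (b e)) i = 0) (wc : ∃ k m, W2 b (g (b c)) k m)
    (wd : ∃ k m, W2 b (g (b d)) k m) (we : ∃ k m, W2 b (g (b e)) k m) : False := by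
  obtain ⟨k, m, wc⟩ := wc
  obtain ⟨k', m', wd⟩ := wd
  obtain ⟨k'', m'', we⟩ := we
  have o : ∀ x y, x ≠ y → pB Q (g (b x)) (g (b y)) = 0 := fun x y h => by
    rw [OG_pB (hK hg), S.orth x y h]
  have key : ∀ {c d e k m k'' m''}, c ∈ I → d ∈ I → e ∈ I → c ≠ d → d ≠ e → c ≠ e →
      b.repr (g (b c)) i = 0 → b.repr (g (b d)) i = 0 → b.repr (g (b e)) i = 0 →
      W2 b (g (b c)) k m → W2 b (g (b d)) k m → W2 b (g (b e)) k'' m'' →
      b.repr (g (b e)) k = 0 → False := by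
    intro c d e k m k'' m'' hc hd he hcd hde hce c0 d0 e0 wc wd we ek
    have f : ∀ x, x ≠ e → W2 b (g (b x)) k m →
        b.repr (g (b x)) k'' = 0 ∧ b.repr (g (b x)) m'' = 0 := fun x hx w =>
      (S.w2_disj we w (o _ _ hx.symm)).resolve_right fun h => by
        have a1 := mt (fun h' : _ ∧ _ => h.2.2.2.2 k h'.1 h'.2) w.2.1
        have a2 := we.2.1
        have a3 := we.2.2.1
        grind
    exact S.t3_base hK P hτ hg hi he hc hd hce.symm hcd e0 c0 d0 we (f c hce wc).1 (f c hce wc).2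
      (f d hde wd).1
  rcases S.w2_disj wc wd (o _ _ hcd) with h1 | h1 <;>
    rcases S.w2_disj wc we (o _ _ hce) with h2 | h2
  · exact S.t3_base hK P hτ hg hi hc hd he hcd hde c0 d0 e0 wc h1.1 h1.2 h2.1
  · exact key hc he hd hce hde.symm hcd c0 e0 d0 wc h2.2 wd h1.1
  · exact key hc hd he hcd hde hce c0 d0 e0 wc h1.2 we h2.1
  · have e1 := o _ _ hcd
    have e2 := o _ _ hce
    have e3 := o _ _ hde
    have q := S.Q_two wc.1 wc.2.2.2
    rw [hK hg, S.one] at q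
    rw [S.pB_two wc.1 wc.2.2.2, mul_eq_zero, or_iff_right S.two] at e1 e2
    rw [S.pB_two wc.1 h1.2.2.2.2, mul_eq_zero, or_iff_right S.two] at e3
    refine mul_ne_zero h1.1 h2.1 ?_
    generalize b.repr (g (b c)) = x at *
    generalize b.repr (g (b d)) = y at *
    generalize b.repr (g (b e)) = z at *
    linear_combination (y k * z k) * q + x m ^ 2 * e3 + (x k * z k) * e1 - x m * y m * e2

theorem ca1 (h5 : 5 ≤ I.card) (hr : ∀ i ∈ I, rE Q (b i) ∈ H) {k i : ι} (hk : k ∈ I) (hi : i ∈ I)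
    (h : b.repr (g (b k)) i = 0) : g ∈ dstab (frame b) := by
  by_contra hg'
  have A : ∀ g ∈ H, g ∉ dstab (frame b) → ∀ k ∈ I, ∀ i ∈ I, b.repr (g (b k)) i = 0 →
      ∃ r s, W2 b (g⁻¹ (b i)) r s := by
    intro g hg hg' k hk i hi h
    have hgi := H.inv_mem hg
    obtain ⟨r, s, h1⟩ := S.sup_of_refl (x := g⁻¹ (b i)) (by rw [hK hgi, S.one]; exact one_ne_zero)
      (P.fix (by rw [← rE_conj (hK hgi)]; exact H.mul_mem (H.mul_mem hgi (hr i hi)) (by simpa))
        hk (rE_of_perp (by rw [S.pB_b', ← S.repr_symm (hK hg), h, mul_zero])))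
    exact ⟨r, s, w2_of h1 fun l hl => hg' ((Subgroup.inv_mem_iff _).1 (P _ hgi i hi l hl))⟩
  obtain ⟨r, s, w⟩ := A g hg hg' k hk i hi h
  obtain ⟨c, d, e, hc, hd, he, hcd, hce, hde⟩ := (Finset.two_lt_card_iff (s := I \ {r, s})).1 (by
    have := Finset.le_card_sdiff {r, s} I
    have := Finset.card_le_two (a := r) (b := s)
    omega)
  simp only [Finset.mem_sdiff, Finset.mem_insert, Finset.mem_singleton, not_or] at hc hd he
  have z : ∀ c, c ∈ I ∧ c ≠ r ∧ c ≠ s → b.repr (g⁻¹ (b i)) c = 0 := fun c hc =>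
    w.2.2.2 c hc.2.1 hc.2.2
  have A' := fun c hc => A _ (H.inv_mem hg) (by rwa [Subgroup.inv_mem_iff]) i hi c hc.1 (z c hc)
  simp only [inv_inv] at A'
  simp only [← S.repr_symm (hK hg)] at z
  exact S.t3 hK P hτ hg hi hc.1 hd.1 he.1 hcd hde hce (z c hc) (z d hd) (z e he) (A' c hc)
    (A' d hd) (A' e he)

end T3

theorem proj_of_rr {u u' : V} (hu : Q u = 1) (hu' : Q u' = 1) (o : pB Q u u' = 0)
    (h : rE Q u * rE Q u' ∈ dstab (frame b)) (k : ι) :
    ∃ (m : ι) (c : F), (2 * b.repr u k) • u + (2 * b.repr u' k) • u' = b k - c • b m := by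
  obtain ⟨σ, hσ⟩ := exists_of_mem_dstab_frame h
  obtain ⟨c, -, hc⟩ := hσ k
  refine ⟨σ k, c, ?_⟩
  rw [← hc, le_mul_apply, rE_apply, rE_apply]
  simp only [hu, hu', o, S.pB_b', map_sub, map_smul, inv_one, one_mul, smul_zero, sub_zero]
  abel

theorem exists_repr_ne {x : V} (hx : x ≠ 0) : ∃ k, b.repr x k ≠ 0 := by
  by_contra h
  push Not at h
  exact hx (b.ext_elem fun i => by simp [h])

theorem sup_four {u u' : V} (hu : Q u = 1) (hu' : Q u' = 1) (o : pB Q u u' = 0)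
    (h : rE Q u * rE Q u' ∈ dstab (frame b)) :
    ∃ J : Finset ι, J.card ≤ 4 ∧ ∀ t ∉ J, b.repr u t = 0 := by
  obtain ⟨k, hk⟩ := S.exists_repr_ne (x := u) (by rintro rfl; simp at hu)
  obtain ⟨l, hl⟩ := S.exists_repr_ne (x := b.repr u' k • u - b.repr u k • u') (fun e => by
    have := congrArg (pB Q u') e
    simp [pB_zero o, pB_self, hu', hk, S.two] at this)
  obtain ⟨m, c, e⟩ := S.proj_of_rr hu hu' o h k
  obtain ⟨m', c', e'⟩ := S.proj_of_rr hu hu' o h l
  refine ⟨{k, m, l, m'}, Finset.card_le_four, fun t ht => ?_⟩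
  simp only [Finset.mem_insert, Finset.mem_singleton, not_or] at ht
  have e1 := congrArg (fun y => b.repr y t) e
  have e2 := congrArg (fun y => b.repr y t) e'
  simp only [map_add, map_sub, map_smul, Finsupp.add_apply, Finsupp.sub_apply, Finsupp.smul_apply,
    Basis.repr_self, Finsupp.single_apply, Ne.symm ht.1, Ne.symm ht.2.1, Ne.symm ht.2.2.1,
    Ne.symm ht.2.2.2, if_false, smul_eq_mul] at e1 e2 hl
  refine (mul_eq_zero.1 ?_).resolve_left (mul_ne_zero S.two hl)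
  linear_combination b.repr u' k * e2 - b.repr u' l * e1

theorem perp_root {k m m' : ι} {c c' : F} (h0 : b k - c • b m ≠ 0) (h0' : b k - c' • b m' ≠ 0)
    (h : pB Q (b k - c • b m) (b k - c' • b m') = 0) : m' = m ∧ c' = -c⁻¹ := by
  have := S.two
  have h1 : ∀ {m : ι} {c : F}, b k - c • b m ≠ 0 → m = k → 1 - c ≠ 0 := by
    rintro m c h rfl e
    exact h (by rw [← sub_eq_zero.1 e, one_smul, sub_self])
  simp only [map_sub, map_smul, LinearMap.sub_apply, LinearMap.smul_apply, S.pB_b,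
    Basis.repr_self, Finsupp.single_apply, smul_eq_mul, if_true] at h
  by_cases e1 : m = k <;> by_cases e2 : m' = k
  · exact absurd (by simp [e1, e2] at h; linear_combination h)
      (mul_ne_zero this (mul_ne_zero (h1 h0 e1) (h1 h0' e2)))
  · exact absurd (by simp [e1, e2] at h; linear_combination h)
      (mul_ne_zero this (h1 h0 e1))
  · exact absurd (by simp [e2, Ne.symm e1] at h; linear_combination h)
      (mul_ne_zero this (h1 h0' e2))
  · by_cases e3 : m' = m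
    · simp only [e3, e1, Ne.symm e1, if_false, if_true] at h
      have h2 : c * c' = -1 := mul_left_cancel₀ this (by linear_combination h)
      have c0 : c ≠ 0 := by rintro rfl; simp at h2
      exact ⟨e3, by field_simp; linear_combination h2⟩
    · simp [e2, e3, Ne.symm e1, this] at h

theorem sup_of_five {f : ι → V} {C : Finset ι} (h5 : 5 ≤ C.card) (q : ∀ c, Q (f c) = 1)
    (o : ∀ c d, c ≠ d → pB Q (f c) (f d) = 0)
    (h : ∀ c ∈ C, ∀ d ∈ C, c ≠ d → rE Q (f c) * rE Q (f d) ∈ dstab (frame b)) {c : ι}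
    (hc : c ∈ C) : ∃ k m, ∀ t, t ≠ k → t ≠ m → b.repr (f c) t = 0 := by
  obtain ⟨k, hk⟩ := S.exists_repr_ne (x := f c) (fun e => by simpa [e] using q c)
  by_contra hn
  have p0 : ∀ d ∈ C, b.repr (f d) k ≠ 0 := by
    intro d hd h0
    have hcd : c ≠ d := by rintro rfl; exact hk h0
    obtain ⟨m, a, e⟩ := S.proj_of_rr (q c) (q d) (o c d hcd) (h c hc d hd hcd) k
    refine hn ⟨k, m, fun t t1 t2 => ?_⟩
    simpa [h0, t1.symm, t2.symm, hk, S.two] using congrArg (fun y => b.repr y t) e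
  have w : ∀ c ∈ C, ∀ d ∈ C, c ≠ d → ∃ (m : ι) (a : F), b k - a • b m ≠ 0 ∧
      (2 * b.repr (f c) k) • f c + (2 * b.repr (f d) k) • f d = b k - a • b m := by
    intro c hc d hd hcd
    obtain ⟨m, a, e⟩ := S.proj_of_rr (q c) (q d) (o c d hcd) (h c hc d hd hcd) k
    refine ⟨m, a, fun e0 => ?_, e⟩
    simpa [pB_self, q, o c d hcd, S.two, p0 c hc] using congrArg (pB Q (f c)) (e.trans e0)
  obtain ⟨d, hd⟩ : (C.erase c).Nonempty := by
    rw [← Finset.card_pos, Finset.card_erase_of_mem hc]; omega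
  obtain ⟨x, y, z, hx, hy, hz, hxy, hxz, hyz⟩ :=
    (Finset.two_lt_card_iff (s := (C.erase c).erase d)).1 (by
      rw [Finset.card_erase_of_mem hd, Finset.card_erase_of_mem hc]; omega)
  simp only [Finset.mem_erase] at hd hx hy hz
  obtain ⟨m, a, n1, e1⟩ := w c hc d hd.2 hd.1.symm
  obtain ⟨m', a', n2, e2⟩ := w x hx.2.2 y hy.2.2 hxy
  obtain ⟨m'', a'', n3, e3⟩ := w x hx.2.2 z hz.2.2 hxz
  obtain ⟨rfl, rfl⟩ := S.perp_root n1 n2 (by
    rw [← e1, ← e2]
    simp [o _ _ hx.1.symm, o _ _ hx.2.1.symm, o _ _ hy.1.symm, o _ _ hy.2.1.symm])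
  obtain ⟨rfl, rfl⟩ := S.perp_root n1 n3 (by
    rw [← e1, ← e3]
    simp [o _ _ hx.1.symm, o _ _ hx.2.1.symm, o _ _ hz.1.symm, o _ _ hz.2.1.symm])
  simpa [pB_self, q, o _ _ hyz, S.two, p0 y hy.2.2] using
    congrArg (pB Q (f y)) (add_left_cancel (e2.trans e3.symm))

theorem ca2 (h9 : 9 ≤ Fintype.card ι) (hK : H ≤ OG Q) (P : PartI b H Finset.univ)
    (hτ : ∀ c d e f, c ≠ d → e ≠ f → rE Q (b c - b d) * rE Q (b e - b f) ∈ H)
    (hr : ∀ i j, rE Q (b i) * rE Q (b j) ∈ H) {g : V ≃ₗ[F] V} (hg : g ∈ H) {k i j : ι}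
    (hij : i ≠ j) (hi : b.repr (g (b k)) i = 0) (hj : b.repr (g (b k)) j = 0) :
    g ∈ dstab (frame b) := by
  by_contra hg'
  have A : ∀ g ∈ H, ∀ k i j, b.repr (g (b k)) i = 0 → b.repr (g (b k)) j = 0 →
      rE Q (g⁻¹ (b i)) * rE Q (g⁻¹ (b j)) ∈ dstab (frame b) := by
    intro g hg k i j hi hj
    have hgi := H.inv_mem hg
    refine P.fix (k := k) (rr_conj2 hgi (hK hgi) (hr i j)) (by simp) ?_
    rw [le_mul_apply, rE_of_perp (v := g⁻¹ (b j)), rE_of_perp] <;>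
      rw [S.pB_b', ← S.repr_symm (hK hg)] <;> simp [hi, hj]
  have hgi := hK (H.inv_mem hg)
  obtain ⟨J, cJ, hJ⟩ := S.sup_four ((hgi _).trans (S.one i)) ((hgi _).trans (S.one j))
    ((OG_pB hgi _ _).trans (S.orth i j hij)) (A g hg k i j hi hj)
  have hC : 5 ≤ Jᶜ.card := by rw [Finset.card_compl]; omega
  have w : ∀ c ∈ Jᶜ, ∃ k m, W2 b (g (b c)) k m := fun c hc => by
    obtain ⟨k, m, h⟩ := S.sup_of_five (f := fun c => g (b c)) hC
      (fun c => (hK hg _).trans (S.one c)) (fun c d h => (OG_pB (hK hg) _ _).trans (S.orth c d h))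
      (fun c hc d hd _ => by
        simpa using A _ (H.inv_mem hg) i c d (hJ c (by simpa using hc)) (hJ d (by simpa using hd)))
      hc
    exact ⟨k, m, w2_of h fun l hl => hg' (P g hg c (by simp) l hl)⟩
  obtain ⟨c, d, e, hc, hd, he, hcd, hce, hde⟩ := (Finset.two_lt_card_iff (s := Jᶜ)).1 (by omega)
  have z : ∀ c ∈ Jᶜ, b.repr (g (b c)) i = 0 := fun c hc => by
    rw [S.repr_symm (hK hg)]; exact hJ c (by simpa using hc)
  exact S.t3 hK P (fun c _ d _ e _ f _ => hτ c d e f) hg (Finset.mem_univ i) (by simp) (by simp)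
    (by simp) hcd hde hce (z c hc) (z d hd) (z e he) (w c hc) (w d hd) (w e he)

end Fr

end Cfsg.Agent.H27
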