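import Cfsg.Agent.H27.OC1

/-!
Orthogonal groups: the stabiliser of a decomposition into two totally singular subspaces of even
dimension is maximal in `Ω`.
-/

set_option autoImplicit false
set_option linter.unusedSectionVars false
set_option linter.unusedSimpArgs false

namespace Cfsg.Agent.H27

open Module Cfsg.Geo QuadraticMap H11

variable {F V : Type*} [Field F] [AddCommGroup V] [Module F V] [FiniteDimensional F V] [Finite F]
variable {Q : QuadraticForm F V} {H : Subgroup (V ≃ₗ[F] V)} {D : Fin 2 → Submodule F V}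

section

variable (h : ND Q) (d : Dec D) (hD : ∀ i, ∀ x ∈ D i, Q x = 0)
include h d hD

theorem opair_π {i j : Fin 2} (hij : i ≠ j) {y : V} (hy : y ∈ D j) (x : V) :
    pB Q y (d.π i x) = pB Q y x := by
  conv_rhs => rw [← d.add_two hij x, map_add, pB_of_sing (hD j) hy (d.mem j x), add_zero]

theorem opair_exists {i j : Fin 2} (hij : i ≠ j) {W : Submodule F V} (hW : W ≤ D i) {a : V}
    (ha : a ∈ D i) (haW : a ∉ W) : ∃ y ∈ D j, (∀ w ∈ W, pB Q y w = 0) ∧ pB Q y a = 1 := by
  obtain ⟨b, hb, hba⟩ := nd_exists_perp_one h haW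
  refine ⟨d.π j b, d.mem j b, fun w hw => ?_, ?_⟩
  · rw [pB_comm, opair_π h d hD hij.symm (hW hw), hb w hw]
  · rw [pB_comm, opair_π h d hD hij.symm ha, pB_comm, hba]

theorem opair_rr (hd : 5 ≤ finrank F V) (hH : dstab D ⊓ OM Q ≤ H) {i j : Fin 2} (hij : i ≠ j)
    {x y : V} (hx : x ∈ D i) (hy : y ∈ D j) (hxy : pB Q x y = 0) : y ∈ RR H (hD i x hx) :=
  rr_of_le h hd hH _ hxy fun c g hgf => mem_dstab_of_stab fun k =>
    mem_stab_of_mapsTo fun z hz => by
      rw [hgf, eF]
      rcases fin2_cases hij k with rfl | rfl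
      · rw [pB_of_sing (hD k) hx hz, zero_smul, add_zero]
        exact (D k).sub_mem hz ((D k).smul_mem _ hx)
      · rw [pB_of_sing (hD k) ((D k).smul_mem c hy) hz, hD k _ ((D k).smul_mem c hy)]
        simpa using (D k).add_mem hz ((D k).smul_mem _ ((D k).smul_mem c hy))

theorem opair_move (hd : 5 ≤ finrank F V) (hH : dstab D ⊓ OM Q ≤ H) {i j : Fin 2} (hij : i ≠ j)
    {a b x : V} {ha : Q a = 0} (hb : b ∈ RR H ha) (hx : x ∈ D i) (hxa : pB Q x a = 0)
    (hxb : pB Q x b = 0) (h1 : d.π i b ∉ Submodule.span F {d.π i a, x}) : x ∈ RR H ha := by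
  obtain ⟨y, hy, hy1, hy2⟩ := opair_exists h d hD hij (W := Submodule.span F {d.π i a, x})
    (Submodule.span_le.2 (by rintro _ (rfl | rfl); exacts [d.mem i a, hx])) (d.mem i b) h1
  rw [opair_π h d hD hij hy] at hy2
  have := rr_move hb (opair_rr h d hD hd hH hij hx hy (pB_zero (hy1 _ (Submodule.subset_span
    (by simp))))) hxa (by
      rw [← opair_π h d hD hij hy]; exact hy1 _ (Submodule.subset_span (by simp)))
  simpa [hxb, hy2] using this

omit h d hD in
theorem not_mem_span_pair_symm {a b x : V} (hb : b ∉ Submodule.span F {a})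
    (hx : x ∉ Submodule.span F {a, b}) : b ∉ Submodule.span F {a, x} := by
  intro hc
  obtain ⟨α, β, hαβ⟩ := Submodule.mem_span_pair.1 hc
  rcases eq_or_ne β 0 with rfl | hβ
  · exact hb (Submodule.mem_span_singleton.2 ⟨α, by simpa using hαβ⟩)
  · refine hx (Submodule.mem_span_pair.2 ⟨-(β⁻¹ * α), β⁻¹, ?_⟩)
    rw [← hαβ]; match_scalars <;> field_simp; ring

theorem opair_core (hd : 5 ≤ finrank F V) (hH : dstab D ⊓ OM Q ≤ H) {i j : Fin 2} (hij : i ≠ j)
    (h5 : 5 ≤ finrank F (D i)) {a b : V} {ha : Q a = 0} (hb : b ∈ RR H ha) (hai : d.π i a ≠ 0)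
    (hbi : d.π i b ∉ Submodule.span F {d.π i a}) : ∃ x ∈ D i, x ≠ 0 ∧ AO Q H x := by
  obtain ⟨x, hx, hx1, hx2⟩ := exists_ker_list [pB Q a, pB Q b] (W := D i)
    (S := Submodule.span F {d.π i a, d.π i b}) (by
      have := finrank_span_pair_le (F := F) (d.π i a) (d.π i b)
      simp only [List.length_cons, List.length_nil]; omega)
  have hxa : pB Q x a = 0 := pB_zero (hx1 _ (by simp))
  have hxb : pB Q x b = 0 := pB_zero (hx1 _ (by simp))
  have h1 := rr_symm (opair_move h d hD hd hH hij hb hx hxa hxb (not_mem_span_pair_symm hbi hx2))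
    (hD i x hx)
  have h2 : ∀ v, pB Q x v = 0 → d.π j v ∈ RR H (hD i x hx) := fun v hv =>
    opair_rr h d hD hd hH hij hx (d.mem j v) (by rw [opair_π h d hD hij.symm hx, hv])
  have h3 : d.π i a ∈ RR H (hD i x hx) := by
    rw [eq_sub_of_add_eq (d.add_two hij a)]
    exact Submodule.sub_mem _ h1 (h2 a hxa)
  have h4 : ∀ z ∈ D i, z ∈ RR H (hD i x hx) := fun z hz => by
    by_cases h5 : z ∈ Submodule.span F {x, d.π i a}
    · refine (Submodule.span_le.2 ?_ : _ ≤ RR H (hD i x hx)) h5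
      rintro _ (rfl | rfl)
      exacts [rr_self _, h3]
    · refine opair_move h d hD hd hH hij h3 hz (pB_of_sing (hD i) hz hx)
        (pB_of_sing (hD i) hz (d.mem i a)) ?_
      rw [d.π_π, d.self hx]
      exact not_mem_span_pair_symm (not_mem_span_symm
        (fun hc => hx2 (Submodule.span_mono (by simp) hc)) hai) h5
  refine ⟨x, hx, by rintro rfl; exact hx2 (Submodule.zero_mem _), hD i x hx, fun v hv => ?_⟩
  rw [← d.add_two hij v]
  exact Submodule.add_mem _ (h4 _ (d.mem i v)) (h2 v hv)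

theorem opair_trans (hd : 5 ≤ finrank F V) (hH : dstab D ⊓ OM Q ≤ H) (hG : H ≤ OG Q)
    {i j : Fin 2} (hij : i ≠ j) {x : V} (hx : x ∈ D i) (hx0 : x ≠ 0) (hA : AO Q H x) {z : V}
    (hz : z ∈ D i) : AO Q H z := by
  by_cases hzx : z ∈ Submodule.span F {x}
  · obtain ⟨c, rfl⟩ := Submodule.mem_span_singleton.1 hzx
    exact hA.smul c
  have hzx' : x - z ∉ Submodule.span F {x} := fun hc => hzx (by
    simpa using Submodule.sub_mem _ (Submodule.mem_span_singleton_self x) hc)
  have hm := (D i).sub_mem hx hz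
  obtain ⟨y, hy, hy1, hy2⟩ := opair_exists h d hD hij (W := Submodule.span F {x - z})
    ((Submodule.span_singleton_le_iff_mem _ _).2 hm) hx (not_mem_span_symm hzx' hx0)
  obtain ⟨s, hs, hsf⟩ := ((opair_rr h d hD hd hH hij hm hy
    (pB_zero (hy1 _ (Submodule.mem_span_singleton_self _)))).2 1).exists
  have := hA.conj hs (hG hs)
  rw [hsf, eF, one_smul, pB_of_sing (hD i) hm hx, hy2] at this
  simpa using this

theorem opair_swap {m : ℕ} (hm : ∀ i, finrank F (D i) = m) (he : Even m) {i j : Fin 2}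
    (hij : i ≠ j) {v : V} (hv : Q v = -1) : ∃ g ∈ dstab D ⊓ OM Q, ∀ x ∈ D i, g x ∈ D j := by
  classical
  let b := Module.finBasis F (D i)
  have : ∀ k, ∃ y ∈ D j, ∀ l, pB Q y (b l) = if l = k then 1 else 0 := fun k => by
    obtain ⟨y, hy⟩ := exists_rep_dual (σ := RingHom.id F) (fun _ => rfl) (pB Q) h
      (b.coord k ∘ₗ (d.π i).codRestrict (D i) (d.mem i))
    refine ⟨d.π j y, d.mem j y, fun l => ?_⟩
    rw [pB_comm, opair_π h d hD hij.symm (b l).2, pB_comm, hy, LinearMap.comp_apply,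
      show (d.π i).codRestrict (D i) (d.mem i) (b l) = b l from Subtype.ext (d.self (b l).2)]
    simp [Finsupp.single_apply]
  choose f hf hfe using this
  have hQ : ∀ k, Q (b k - f k) = -1 := fun k => by
    rw [Qsub, hD i _ (b k).2, hD j _ (hf k), pB_comm, hfe]; simp
  have key : ∀ s : Finset (Fin (finrank F (D i))), ∃ g ∈ OG Q, g * rE Q v ^ s.card ∈ OM Q ∧
      (∀ k ∈ s, g (b k) = f k ∧ g (f k) = b k) ∧ ∀ k ∉ s, g (b k) = b k ∧ g (f k) = f k := by
    intro s
    induction s using Finset.induction_on with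
    | empty => exact ⟨1, (OG Q).one_mem, by simp, by simp, fun _ _ => ⟨rfl, rfl⟩⟩
    | insert a s ha ih =>
      obtain ⟨g, hg, h0, h1, h2⟩ := ih
      have w : ∀ k, rE Q (b a - f a) (b k) = (if k = a then f a else b k) ∧
          rE Q (b a - f a) (f k) = if k = a then (b a : V) else f k := fun k => by
        simp only [rE_apply, hQ, map_sub, LinearMap.sub_apply, hfe, pB_comm (b a : V) (f k),
          pB_of_sing (hD i) (b a).2 (b k).2, pB_of_sing (hD j) (hf a) (hf k)]
        by_cases hk : k = a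
        · subst hk; simp
        · simp [hk, Ne.symm hk]
      refine ⟨g * rE Q (b a - f a), (OG Q).mul_mem hg (rE_mem _), ?_, fun k hk => ?_,
        fun k hk => ?_⟩
      · have := (OM Q).mul_mem (OM_conj hg (rE_mul_mem h (x := b a - f a) (by simp [hQ])
          ((hQ a).trans hv.symm))) h0
        rw [Finset.card_insert_of_notMem ha, pow_succ']
        simpa [mul_assoc] using this
      · rw [le_mul_apply, le_mul_apply, (w k).1, (w k).2]
        rcases Finset.mem_insert.1 hk with rfl | hk'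
        · simp [h2 k ha]
        · have hka : k ≠ a := by rintro rfl; exact ha hk'
          simp [hka, h1 k hk']
      · rw [Finset.mem_insert, not_or] at hk
        simp [le_mul_apply, w k, hk.1, h2 k hk.2]
  obtain ⟨g, hg, h0, h1, -⟩ := key Finset.univ
  have hb : ∀ x ∈ D i, x = ∑ k, b.repr ⟨_, d.mem i x⟩ k • (b k : V) := fun x hx => by
    have := congrArg Subtype.val (b.sum_repr ⟨_, d.mem i x⟩)
    simp only [Submodule.coe_sum, Submodule.coe_smul] at this
    rw [this, d.self hx]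
  have m1 : ∀ x ∈ D i, g x ∈ D j := fun x hx => by
    rw [hb x hx, map_sum]
    exact Submodule.sum_mem _ fun k _ => by
      rw [map_smul, (h1 k (Finset.mem_univ k)).1]; exact (D j).smul_mem _ (hf k)
  have m2 : ∀ y ∈ D j, g y ∈ D i := fun y hy => by
    have e : y = ∑ k, pB Q y (b k) • f k := by
      rw [← sub_eq_zero]
      have hm : y - ∑ k, pB Q y (b k) • f k ∈ D j :=
        (D j).sub_mem hy (Submodule.sum_mem _ fun k _ => (D j).smul_mem _ (hf k))
      refine h _ fun x => ?_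
      rw [← pB_eq, ← opair_π h d hD hij hm, hb _ (d.mem i x), map_sum]
      refine Finset.sum_eq_zero fun l _ => ?_
      simp [hfe, LinearMap.sum_apply]
    rw [e, map_sum]
    exact Submodule.sum_mem _ fun k _ => by
      rw [map_smul, (h1 k (Finset.mem_univ k)).2]; exact (D i).smul_mem _ (b k).2
  refine ⟨g, ⟨mem_dstab_of_mapsTo (Equiv.swap i j) (fun i j => by rw [hm, hm]) fun k => ?_, ?_⟩, m1⟩
  · rcases fin2_cases hij k with rfl | rfl
    · rwa [Equiv.swap_apply_left]
    · rwa [Equiv.swap_apply_right]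
  · obtain ⟨r, hr⟩ := he
    rw [Finset.card_univ, Fintype.card_fin, hm, hr, ← two_mul, pow_mul, pow_two] at h0
    exact ((OM Q).mul_mem_cancel_right ((OM Q).pow_mem (rE_mul_mem h (by simp [hv]) rfl) r)).1 h0

theorem OM_le_of_pair {m : ℕ} (hm : ∀ i, finrank F (D i) = m) (he : Even m) (h5 : 5 ≤ m)
    (hH : dstab D ⊓ OM Q ≤ H) (hG : H ≤ OG Q) {g : V ≃ₗ[F] V} (hg : g ∈ H) (hg' : g ∉ dstab D) :
    OM Q ≤ H := by
  have hd : ∀ i j, finrank F (D i) = finrank F (D j) := fun i j => by rw [hm, hm]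
  have h0 : ∀ i, D i ≠ ⊥ := fun i => ne_bot_of_finrank_pos (by rw [hm]; omega)
  have h01 : (0 : Fin 2) ≠ 1 := by decide
  have hV : 5 ≤ finrank F V := h5.trans (hm 0 ▸ Submodule.finrank_le _)
  obtain ⟨k, x, hx, hgx⟩ := d.exists_not_mem_of_not_mem_dstab hd h0 hg'
  obtain ⟨k', hk'⟩ := exists_ne k
  have hu : ∀ i, d.π i (g x) ≠ 0 := fun i hi => by
    obtain ⟨j, hj⟩ := exists_ne i
    have := d.add_two hj (g x)
    rw [hi, add_zero] at this
    exact hgx j (this ▸ d.mem j _)
  obtain ⟨y, hy, hy1, hy2⟩ := exists_ker_list [pB Q x] (W := D k')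
    (S := (Submodule.span F {d.π 0 (g x), d.π 1 (g x)}).map
      ((g⁻¹ : V ≃ₗ[F] V) : V →ₗ[F] V)) (by
      have := finrank_span_pair_le (F := F) (d.π 0 (g x)) (d.π 1 (g x))
      rw [LinearEquiv.finrank_map_eq, hm]
      simp only [List.length_cons, List.length_nil]; omega)
  have h1 := rr_conj (opair_rr h d hD hV hH hk'.symm hx hy (hy1 _ (by simp))) hg (hG hg)
    ((hG hg x).trans (hD k x hx)) rfl
  obtain ⟨i, hi⟩ : ∃ i, d.π i (g y) ∉ Submodule.span F {d.π i (g x)} := by
    by_contra hc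
    push Not at hc
    refine hy2 ⟨g y, ?_, le_inv_apply g y⟩
    rw [← d.add_two h01 (g y)]
    exact Submodule.add_mem _ (Submodule.span_mono (by simp) (hc 0))
      (Submodule.span_mono (by simp) (hc 1))
  obtain ⟨j, hj⟩ := exists_ne i
  obtain ⟨z, hz, hz0, hzA⟩ := opair_core h d hD hV hH hj.symm (by rw [hm]; exact h5) h1 (hu i) hi
  obtain ⟨w, hw, -, hwz⟩ := opair_exists h d hD hj.symm (W := ⊥) bot_le hz (by simpa using hz0)
  obtain ⟨s, hs, hs'⟩ := opair_swap h d hD hm he hj.symm (v := w - z) (by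
    rw [Qsub, hD i z hz, hD j w hw, hwz]; simp)
  exact OM_le_of_two h hV (opair_trans h d hD hV hH hG hj (hs' z hz)
    ((s.map_ne_zero_iff).2 hz0) (hzA.conj (hH hs) (OM_le hs.2)) hw) hzA (hwz ▸ one_ne_zero)

end

end Cfsg.Agent.H27
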