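import Cfsg.Agent.H27.OInv

/-!
Orthogonal decompositions into planes: an overgroup of the stabiliser in `Ω` may be assumed to
contain all the reflections in vectors of the summands.
-/

set_option autoImplicit false
set_option linter.unusedSectionVars false
set_option linter.unusedSimpArgs false

namespace Cfsg.Agent.H27

open Module Cfsg.Geo QuadraticMap H11

variable {F V : Type*} [Field F] [AddCommGroup V] [Module F V] [FiniteDimensional F V] [Finite F]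
variable {Q : QuadraticForm F V} {H : Subgroup (V ≃ₗ[F] V)}
variable {τ : Type*} [Fintype τ] [DecidableEq τ] {D : τ → Submodule F V}

theorem Dec.exists_perm {g : V ≃ₗ[F] V} (hg : g ∈ dstab D) :
    ∃ ρ : Equiv.Perm τ, (∀ i, ∀ x ∈ D i, g x ∈ D (ρ i)) ∧ ∀ i, ∀ x ∈ D (ρ i), g⁻¹ x ∈ D i := by
  obtain ⟨ρ, hρ⟩ := hg
  refine ⟨ρ, fun i x hx => by rw [← hρ]; exact ⟨x, hx, rfl⟩, fun i x hx => ?_⟩
  rw [← hρ] at hx
  obtain ⟨y, hy, rfl⟩ := hx
  exact (le_inv_apply g y).symm ▸ hy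

theorem mem_of_rr_mem_dstab (h : ND Q) (d : Dec D) (o : Orth (pB Q) D)
    (h2 : ∀ i, 2 ≤ finrank F (D i)) {a b : V} (ha : Q a ≠ 0) (hb : Q b ≠ 0) (hab : pB Q a b ≠ 0)
    (hab' : b ∉ Submodule.span F {a}) (hz : rE Q a * rE Q b ∈ dstab D) : ∃ i, a ∈ D i := by
  have a0 : a ≠ 0 := by rintro rfl; simp at ha
  obtain ⟨ρ, hρ, -⟩ := Dec.exists_perm hz
  by_cases h1 : ∃ i, ρ i ≠ i
  · exfalso
    obtain ⟨i, hi⟩ := h1
    obtain ⟨z, hzd⟩ : ∃ z, z = rE Q a * rE Q b := ⟨_, rfl⟩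
    have hP : ∀ x, z x - x ∈ Submodule.span F {a, b} := hzd ▸ rr_sub_mem a b
    have hzb : z b = -b + ((Q a)⁻¹ * pB Q a b) • a := by
      rw [hzd, le_mul_apply, rE_self hb, map_neg, rE_apply]; module
    rw [← hzd] at hρ
    let T : D i →ₗ[F] V := ((z : V →ₗ[F] V) - LinearMap.id) ∘ₗ (D i).subtype
    have hT : ∀ x : D i, T x = z x - x := fun x => rfl
    have e : LinearMap.range T = Submodule.span F {a, b} := by
      refine Submodule.eq_of_le_of_finrank_le (by rintro _ ⟨x, rfl⟩; exact hP x) ?_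
      rw [LinearMap.finrank_range_of_inj]
      · exact (finrank_span_pair_le a b).trans (h2 i)
      rw [injective_iff_map_eq_zero]
      intro x hx
      exact Subtype.ext (d.eq_zero_of_mem hi (sub_eq_zero.1 (hT x ▸ hx) ▸ hρ i x x.2) x.2)
    obtain ⟨x, hx⟩ : b ∈ LinearMap.range T := e ▸ Submodule.subset_span (by simp)
    obtain ⟨x', hx'⟩ : z (z x) - z x ∈ LinearMap.range T := e ▸ hP _
    rw [hT] at hx hx'
    have e1 := congrArg (d.π (ρ i)) hx'
    simp only [map_sub, d.self (hρ i _ x.2), d.self (hρ i _ x'.2), d.ne hi x'.2,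
      d.ne (ρ.injective.ne hi).symm (hρ _ _ (hρ i _ x.2)), sub_zero, zero_sub, ← map_neg,
      EmbeddingLike.apply_eq_iff_eq] at e1
    have e2 : z b = -b := by
      rw [← hx, map_sub, ← hx', e1, map_neg]; abel
    rw [hzb, add_eq_left, smul_eq_zero] at e2
    exact e2.elim (mul_ne_zero (inv_ne_zero ha) hab) a0
  push Not at h1
  simp only [h1] at hρ
  by_contra hc
  push Not at hc
  obtain ⟨i, hi⟩ := exists_nonsing_π d o ha
  have i0 : d.π i a ≠ 0 := by rintro h; simp [h] at hi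
  obtain ⟨α, β, e⟩ := Submodule.mem_span_pair.1
    (π_mem_of_rr h d ha (not_mem_span_symm hab' a0) hρ i)
  have hβ : β ≠ 0 := by
    rintro rfl
    rw [zero_smul, add_zero] at e
    exact hc i ((Submodule.smul_mem_iff _ (by rintro rfl; simp [← e] at i0)).1 (e ▸ d.mem i a))
  obtain ⟨r, hr⟩ : ∃ r, r = a - d.π i a := ⟨_, rfl⟩
  have r0 : d.π i r = 0 := by simp [hr, d.π_π]
  have r1 : r ≠ 0 := fun h => hc i (sub_eq_zero.1 (hr ▸ h) ▸ d.mem i a)
  have hx := d.mem i a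
  have r2 : pB Q (d.π i a) r = 0 := by rw [← o.π_right d hx, r0, map_zero]
  have ea : a = d.π i a + r := by rw [hr]; abel
  generalize d.π i a = x at *
  obtain ⟨μ, ν, hν, eb⟩ : ∃ μ ν : F, μ ≠ ν ∧ b = μ • x + ν • r :=
    ⟨β⁻¹ * (1 - α), -(β⁻¹ * α), fun h => inv_ne_zero hβ (by linear_combination h), by
      rw [ea] at e
      linear_combination (norm := skip) β⁻¹ • e
      match_scalars <;> field_simp <;> ring⟩
  have h3 := (D i).sub_mem (hρ i x hx) hx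
  have h4 := d.self h3
  subst ea eb
  rw [le_mul_apply, rE_apply, rE_apply] at h4
  simp only [map_sub, map_add, map_smul, d.self hx, r0, LinearMap.add_apply, r2, pB_zero r2,
    LinearMap.smul_apply, pB_self, smul_eq_mul, Qadd, Q_smul] at h4 ha hb hab
  have h5 := (smul_eq_zero.1 (show ((μ * μ * Q x + ν * ν * Q r)⁻¹ * (μ * (2 * Q x)) * ν +
    (Q x + Q r)⁻¹ * (2 * Q x - (μ * μ * Q x + ν * ν * Q r)⁻¹ * (μ * (2 * Q x)) *
      (μ * (2 * Q x) + ν * (2 * Q r)))) • r = 0 by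
        linear_combination (norm := (simp only [mul_zero, add_zero, zero_add]; module)) h4
        )).resolve_right r1
  simp only [mul_zero, add_zero, zero_add, ← pow_two] at ha hb hab h5
  field_simp at h5
  exact mul_ne_zero (mul_ne_zero hi (sub_ne_zero.2 hν)) hab (by linear_combination -h5)

theorem exists_cent (d : Dec D) (h2 : ∀ i, 2 ≤ finrank F (D i)) {z : V ≃ₗ[F] V}
    (hz : z ∈ dstab D) (z2 : z * z = 1) (L : List (Dual F V)) (hL : L.length < Fintype.card τ)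
    (h : ∀ x, (∀ φ ∈ L, φ x = 0) → z x = x) : ∃ i, ∀ x ∈ D i, z x = x := by
  by_contra hc
  push Not at hc
  choose e he he' using hc
  obtain ⟨ρ, hρ, -⟩ := Dec.exists_perm hz
  have e0 : ∀ i, e i ≠ 0 := fun i h => he' i (by simp [h])
  have ρ2 : ∀ i, ρ (ρ i) = i := fun i => by
    by_contra hne
    have := hρ _ _ (hρ i _ (he i))
    rw [← le_mul_apply, z2] at this
    exact e0 i (d.eq_zero_of_mem hne this (he i))
  choose e' hf hf' using fun i => exists_not_mem_span_singleton (h2 i) (z (e (ρ i)))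
  let n := Fintype.equivFin τ
  obtain ⟨x, hx, x1, x2⟩ : ∃ x : τ → V, (∀ i, x i ∈ D i) ∧ (∀ i, n (ρ i) < n i → x i = e' i) ∧
      ∀ i, ¬ n (ρ i) < n i → x i = e i :=
    ⟨fun i => if n (ρ i) < n i then e' i else e i, fun i => by
      dsimp only; split_ifs; exacts [hf i, he i], fun i h => if_pos h, fun i h => if_neg h⟩
  obtain ⟨c, -, c1, c2⟩ := exists_ker_list (L.map (· ∘ₗ Fintype.linearCombination F x))
    (W := (⊤ : Submodule F (τ → F))) (S := ⊥) (by simpa using hL)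
  have h1 := h _ fun φ hφ => c1 _ (List.mem_map_of_mem hφ)
  have hπ : ∀ i, d.π i (Fintype.linearCombination F x c) = c i • x i := fun i => by
    rw [Fintype.linearCombination_apply, map_sum, Finset.sum_eq_single i (fun j _ hj => by
      rw [map_smul, d.ne hj.symm (hx j), smul_zero]) (by simp), map_smul, d.self (hx i)]
  have h3 : ∀ i, c (ρ i) • x (ρ i) = c i • z (x i) := fun i => by
    rw [← hπ, ← h1, d.π_map ρ.injective hρ, hπ, map_smul]
  have h4 : ∀ i, n i < n (ρ i) → c (ρ i) = 0 ∧ c i = 0 := fun i hi => by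
    have h5 := h3 i
    rw [x1 _ (by rwa [ρ2]), x2 i (not_lt.2 hi.le)] at h5
    have h6 : c (ρ i) = 0 := by
      by_contra h6
      refine hf' (ρ i) ((Submodule.smul_mem_iff _ h6).1 ?_)
      rw [h5, ρ2]; exact Submodule.smul_mem _ _ (Submodule.mem_span_singleton_self _)
    rw [h6, zero_smul, eq_comm, smul_eq_zero, z.map_eq_zero_iff] at h5
    exact ⟨h6, h5.resolve_right (e0 i)⟩
  refine c2 (funext fun i => ?_ : c = 0)
  rcases lt_trichotomy (n i) (n (ρ i)) with hi | hi | hi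
  · exact (h4 i hi).2
  · have h5 := h3 i
    rw [← n.injective hi, x2 i (by rw [← hi]; exact lt_irrefl _), ← sub_eq_zero, ← smul_sub,
      smul_eq_zero] at h5
    exact h5.resolve_right fun h => he' i (sub_eq_zero.1 h).symm
  · simpa [ρ2] using (h4 (ρ i) (by rwa [ρ2])).1

/-- `u` acts on every summand trivially or as a reflection in a vector of norm `c`, and trivially
outside `l`. -/
def Loc (Q : QuadraticForm F V) (D : τ → Submodule F V) (c : F) (u : V ≃ₗ[F] V) (l : List τ) :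
    Prop := ∀ j, (j ∉ l ∧ ∀ x ∈ D j, u x = x) ∨
      (j ∈ l ∧ ∃ b ∈ D j, Q b = c ∧ ∀ x ∈ D j, u x = rE Q b x)

theorem rE_mem_sub {W : Submodule F V} {b x : V} (hb : b ∈ W) (hx : x ∈ W) : rE Q b x ∈ W := by
  rw [rE_apply]; exact W.sub_mem hx (W.smul_mem _ hb)

theorem Loc.mem {c : F} {u : V ≃ₗ[F] V} {l : List τ} (h : Loc Q D c u l) (j : τ) :
    ∀ x ∈ D j, u x ∈ D j := fun x hx => by
  rcases h j with ⟨-, h⟩ | ⟨-, b, hb, -, h⟩
  · rwa [h x hx]
  · rw [h x hx]; exact rE_mem_sub hb hx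

theorem Loc.sq (d : Dec D) {c : F} {u : V ≃ₗ[F] V} {l : List τ} (h : Loc Q D c u l) :
    u * u = 1 := LinearEquiv.ext fun x =>
  d.induction (p := fun x => u (u x) = x) (fun j x hx => by
    rcases h j with ⟨-, h⟩ | ⟨-, b, hb, -, h⟩
    · rw [h x hx, h x hx]
    · rw [h x hx, h _ (rE_mem_sub hb hx), rE_rE]) (by simp) (fun x y a b => by simp [a, b]) x

theorem Loc.mul (o : Orth (pB Q) D) {c : F} {u : V ≃ₗ[F] V} {l : List τ} (h : Loc Q D c u l)
    {i : τ} (hi : i ∉ l) {a : V} (ha : a ∈ D i) (a1 : Q a = c) :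
    Loc Q D c (rE Q a * u) (i :: l) := fun j => by
  by_cases hj : i = j
  · subst hj
    exact Or.inr ⟨by simp, a, ha, a1, fun x hx => by
      rw [le_mul_apply, ((h i).resolve_right fun h => hi h.1).2 x hx]⟩
  have : ∀ x ∈ D j, (rE Q a * u) x = u x := fun x hx => rE_of_perp (o i j hj a ha _ (h.mem j x hx))
  exact (h j).imp (fun h => ⟨by simp [h.1, Ne.symm hj], fun x hx => (this x hx).trans (h.2 x hx)⟩)
    fun ⟨h1, b, hb, h2, h3⟩ => ⟨by simp [h1], b, hb, h2, fun x hx => (this x hx).trans (h3 x hx)⟩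

theorem Loc.conj {c : F} {u n : V ≃ₗ[F] V} {l : List τ} (h : Loc Q D c u l) (hn : n ∈ dstab D)
    (hi : n ∈ OG Q) : ∃ l' : List τ, l'.length = l.length ∧ Loc Q D c (n * u * n⁻¹) l' := by
  obtain ⟨ρ, h1, h2⟩ := Dec.exists_perm hn
  refine ⟨l.map ρ, by simp, fun j => ?_⟩
  obtain ⟨j, rfl⟩ := ρ.surjective j
  refine (h j).imp (fun h => ⟨by simpa using h.1, fun x hx => ?_⟩) fun ⟨h3, b, hb, h4, h5⟩ =>
    ⟨List.mem_map_of_mem h3, n b, h1 j b hb, (hi b).trans h4, fun x hx => ?_⟩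
  · rw [le_mul_apply, le_mul_apply, h.2 _ (h2 j x hx), le_apply_inv]
  · rw [le_mul_apply, le_mul_apply, h5 _ (h2 j x hx), ← rE_conj hi]; rfl

/-- Every non-singular vector of a summand has a suitable companion. -/
def GP (Q : QuadraticForm F V) (D : τ → Submodule F V) : Prop :=
  ∀ i, ∀ a ∈ D i, Q a ≠ 0 →
    ∃ u ∈ D i, pB Q a (rE Q u a) ≠ 0 ∧ rE Q u a ∉ Submodule.span F {a}

namespace OI

variable (S : OI Q D H) (d : Dec D) (h2 : ∀ i, 2 ≤ finrank F (D i)) (hG : GP Q D)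
include S d h2 hG

theorem claimA {c : F} (hc : c ≠ 0) (hP : Part Q D H c) {g : V ≃ₗ[F] V} (hg : g ∈ H) {i l : τ}
    {x : V} (hx : x ∈ D i) (x1 : Q x = c) (h : ∀ y ∈ D l, pB Q (g x) y = 0) : g ∈ dstab D := by
  obtain ⟨a, ha, a1⟩ := (S.ndon d l).exists_rep (h2 l) c
  obtain ⟨u, hu, b2, b3⟩ := hG l a ha (a1 ▸ hc)
  have hb := rE_mem_sub (Q := Q) hu ha
  have b1 : Q (rE Q u a) = Q a := rE_mem u a
  generalize rE Q u a = b at hb b1 b2 b3
  have hgi := (OG Q).inv_mem (S.le hg)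
  have h4 : ∀ y ∈ D l, pB Q (g⁻¹ y) x = 0 := fun y hy => by
    rw [← OG_pB (S.le hg), le_apply_inv, pB_zero (h y hy)]
  obtain ⟨m, hm⟩ := mem_of_rr_mem_dstab S.nd d S.orth h2 (a := g⁻¹ a) (b := g⁻¹ b)
    (by rw [hgi, a1]; exact hc) (by rw [hgi, b1, a1]; exact hc) (by rwa [OG_pB hgi]) (fun h => by
      obtain ⟨t, ht⟩ := Submodule.mem_span_singleton.1 h
      rw [← map_smul, EmbeddingLike.apply_eq_iff_eq] at ht
      exact b3 (Submodule.mem_span_singleton.2 ⟨t, ht⟩))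
    (hP _ (rr_conj2 (H.inv_mem hg) hgi (S.rE_mul d ha hb (a1 ▸ hc) b1.symm)) i x hx x1 i (by
      rwa [le_mul_apply, rE_of_perp (h4 b hb), rE_of_perp (h4 a ha)]))
  exact hP g hg m _ hm ((hgi a).trans a1) l (by rwa [le_apply_inv])

theorem exists_sub_eq {i : τ} {b a : V}
    (h : d.π i b ∉ Submodule.span F {d.π i a}) :
    ∃ x ∈ D i, pB Q a x = 0 ∧ rE Q b x - x = -(Q b)⁻¹ • b := by
  obtain ⟨x, hx, x1, x2⟩ := exists_perp_summand S.nd d S.orth h
  exact ⟨x, hx, pB_zero x1, by rw [rE_apply, pB_comm, x2]; module⟩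

theorem mem_of_part2 (ht : 7 ≤ Fintype.card τ) {c : F} (hc : c ≠ 0) (hP : Part Q D H c)
    {g : V ≃ₗ[F] V} (hg : g ∈ H) : g ∈ dstab D := by
  have := finite_lequiv (F := F) (V := V)
  obtain ⟨e⟩ := Function.Embedding.nonempty_of_card_le (α := Fin 4) (β := τ) (by simp; omega)
  choose a ha a1 using fun i => (S.ndon d i).exists_rep (h2 i) c
  have a0 : ∀ i, Q (a i) ≠ 0 := fun i => a1 i ▸ hc
  have b2 : ∀ j, ∀ b ∈ D j, Q b = c → d.π j b ∉ Submodule.span F {d.π j 0} := fun j b hb b1 => by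
    rw [d.self hb]; simpa using fun h => hc (by simp [← b1, h])
  have a2 := fun i => b2 i _ (ha i) (a1 i)
  have L0 : Loc Q D c 1 [] := fun j => Or.inl ⟨by simp, fun _ _ => rfl⟩
  have L1 := fun i j h => (L0.mul S.orth (by simp) (ha j) (a1 j)).mul S.orth (i := i) h (ha i) (a1 i)
  have Ly := L1 (e 0) (e 1) (by simp)
  have Lw := ((L1 (e 2) (e 3) (by simp)).mul S.orth (i := e 1) (by simp) (ha _) (a1 _)).mul S.orth
    (i := e 0) (by simp) (ha _) (a1 _)
  have hH : ∀ i j, rE Q (a i) * rE Q (a j) ∈ H := fun i j =>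
    S.rE_mul d (ha i) (ha j) (a0 i) ((a1 i).trans (a1 j).symm)
  have U : ∀ u : V ≃ₗ[F] V, u ∈ H → u * u = 1 → (∀ x ∈ D (e 0), u x = rE Q (a (e 0)) x) →
      (∀ x, (∀ m, pB Q (a (e m)) x = 0) → u x = x) → ∀ h ∈ H, h * u * h⁻¹ ∈ dstab D →
        h ∈ dstab D := by
    intro u hu u2 u3 u4 h hh h1
    have hi := S.le hh
    obtain ⟨i, h3⟩ := exists_cent d h2 h1 (by simp [mul_assoc, ← mul_assoc u u, u2])
      (List.ofFn fun m => pB Q (h (a (e m)))) (by simp; omega) fun x hx => by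
        rw [le_mul_apply, le_mul_apply, u4 _ fun m => by
          rw [← OG_pB hi, le_apply_inv]; exact hx _ (List.mem_ofFn.2 ⟨m, rfl⟩), le_apply_inv]
    obtain ⟨x, hx, -, x2⟩ := S.exists_sub_eq d h2 hG (a2 (e 0))
    refine S.claimA d h2 hG hc hP hh (ha (e 0)) (a1 _) (l := i) fun y hy => ?_
    have := perp_of_fix (S.le (H.mul_mem (H.mul_mem hh hu) (H.inv_mem hh))) (h3 y hy) (h x)
    rw [le_mul_apply, le_mul_apply, le_inv_apply, ← map_sub, u3 x hx, x2] at this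
    simpa [a0] using this
  have hw : rE Q (a (e 0)) * (rE Q (a (e 1)) * (rE Q (a (e 2)) * (rE Q (a (e 3)) * 1))) ∈ H := by
    rw [mul_one, ← mul_assoc]; exact H.mul_mem (hH _ _) (hH _ _)
  have o := fun i j (h : i ≠ j) x hx => rE_of_perp (S.orth i j h _ (ha i) x hx)
  have ds : ∀ {u l}, Loc Q D c u l → u ∈ dstab D := fun h =>
    mem_dstab_of_stab fun j => mem_stab_of_mapsTo (h.mem j)
  obtain ⟨z, z1, ⟨n, hn, nN, z2⟩, n', hn', nN', z3⟩ := inv_trick (N := dstab D)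
    (by simpa using hH (e 0) (e 1)) hw hg (Ly.sq d) (Lw.sq d) (ds Ly) (ds Lw)
    (U _ (by simpa using hH (e 0) (e 1)) (Ly.sq d) (fun x hx => by
      simp [le_mul_apply, o (e 1) (e 0) (by simp) x hx]) fun x hx => by
        simp [le_mul_apply, rE_of_perp (hx _)])
    (U _ hw (Lw.sq d) (fun x hx => by
      simp [le_mul_apply, o (e 1) (e 0) (by simp) x hx, o (e 2) (e 0) (by simp) x hx,
        o (e 3) (e 0) (by simp) x hx]) fun x hx => by simp [le_mul_apply, rE_of_perp (hx _)])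
    fun n hn nN h => by
      obtain ⟨l, hl, L⟩ := Ly.conj nN (S.le hn)
      obtain ⟨m, hm⟩ := exists_not_mem_list (l.map (Function.invFun e)) (by simp [hl])
      obtain ⟨-, b, hb, b1, h1⟩ := (Lw (e m)).resolve_left fun h => h.1 (by fin_cases m <;> simp)
      obtain ⟨x, hx, -, x2⟩ := S.exists_sub_eq d h2 hG (b2 _ b hb b1)
      rw [← h1 x hx, ← h, ((L (e m)).resolve_right fun h => hm (List.mem_map.2
        ⟨_, h.1, Function.leftInverse_invFun e.injective m⟩)).2 x hx, sub_self, eq_comm] at x2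
      exact hc (by simp [← b1, (smul_eq_zero.1 x2).resolve_left (by simpa [b1] using hc)])
  obtain ⟨u, l, hl, L, z4⟩ : ∃ u, ∃ l : List τ, l.length ≤ 4 ∧ Loc Q D c u l ∧
      z = u * (rE Q (a (e 0)) * (rE Q (a (e 1)) * 1)) := by
    rcases z2 with z2 | z2
    · obtain ⟨l, hl, L⟩ := Ly.conj nN (S.le hn)
      exact ⟨_, l, by simp [hl], L, by rw [← z2, mul_assoc, Ly.sq d, mul_one]⟩
    · obtain ⟨l, hl, L⟩ := Lw.conj nN (S.le hn)
      exact ⟨_, l, by simp [hl], L, by rw [← z2, mul_assoc, Ly.sq d, mul_one]⟩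
  obtain ⟨i, hi⟩ := exists_not_mem_list (e 0 :: e 1 :: l) (by simp; omega)
  simp only [List.mem_cons, not_or] at hi
  have zi : ∀ x ∈ D i, z x = x := fun x hx => by
    rw [z4, le_mul_apply, ((Ly i).resolve_right (by simp [hi])).2 x hx,
      ((L i).resolve_right (by simp [hi])).2 x hx]
  obtain ⟨u', l', L', z5, hu'⟩ : ∃ u', ∃ l' : List τ, Loc Q D c u' l' ∧ g⁻¹ * z * g = u' *
      (rE Q (a (e 0)) * (rE Q (a (e 1)) * (rE Q (a (e 2)) * (rE Q (a (e 3)) * 1)))) ∧ u' ∈ H := by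
    rcases z3 with z3 | z3
    · obtain ⟨l, -, L⟩ := Ly.conj nN' (S.le hn')
      exact ⟨_, l, L, by rw [← z3, mul_assoc _ _ (_ * _), Lw.sq d, mul_one],
        H.mul_mem (H.mul_mem hn' (by simpa using hH _ _)) (H.inv_mem hn')⟩
    · obtain ⟨l, -, L⟩ := Lw.conj nN' (S.le hn')
      exact ⟨_, l, L, by rw [← z3, mul_assoc _ _ (_ * _), Lw.sq d, mul_one],
        H.mul_mem (H.mul_mem hn' hw) (H.inv_mem hn')⟩
  have hz : z ∈ OG Q := by
    have := H.mul_mem (H.mul_mem hg (z5 ▸ H.mul_mem hu' hw)) (H.inv_mem hg)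
    exact S.le (by simpa [mul_assoc] using this)
  have fin : ∀ j, ∀ b ∈ D j, Q b = c → ∀ x, (g⁻¹ * z * g) x - x = -(Q b)⁻¹ • b →
      g ∈ dstab D := fun j b hb b1 x hx =>
    S.claimA d h2 hG hc hP hg hb b1 (l := i) fun y hy => by
      have := perp_of_fix hz (zi y hy) (g x)
      rw [← le_apply_inv g (z _), ← map_sub, show g⁻¹ (z (g x)) - x = _ from hx] at this
      simpa [b1, hc] using this
  obtain ⟨j, x, hx, hx'⟩ : ∃ j, ∃ x ∈ D j, (g⁻¹ * z * g) x ≠ x := by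
    by_contra h
    push Not at h
    have : g⁻¹ * z * g = 1 := LinearEquiv.ext fun x => d.induction
      (p := fun x => (g⁻¹ * z * g) x = x) h (by simp) (fun x y a b => by rw [map_add, a, b]) x
    exact z1 (by simpa [mul_assoc, inv_mul_eq_one] using this)
  rw [z5] at fin hx'
  rcases L' j with ⟨-, h⟩ | ⟨-, b, hb, b1, h⟩ <;>
    rcases Lw j with ⟨-, h'⟩ | ⟨-, b', hb', b1', h'⟩
  · exact absurd (by rw [le_mul_apply, h' x hx, h x hx]) hx'
  · obtain ⟨y, hy, -, y2⟩ := S.exists_sub_eq d h2 hG (b2 _ _ hb' b1')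
    exact fin j b' hb' b1' y (by rw [le_mul_apply, h' y hy, h _ (rE_mem_sub hb' hy), y2])
  · obtain ⟨y, hy, -, y2⟩ := S.exists_sub_eq d h2 hG (b2 _ _ hb b1)
    exact fin j b hb b1 y (by rw [le_mul_apply, h' y hy, h y hy, y2])
  · obtain ⟨y, hy, y1, y2⟩ := S.exists_sub_eq d h2 hG (i := j) (b := b) (a := b') (by
      rw [d.self hb, d.self hb']
      intro h3
      obtain ⟨t, rfl⟩ := Submodule.mem_span_singleton.1 h3
      exact hx' (by rw [le_mul_apply, h' x hx, h _ (rE_mem_sub hb' hx), rE_smul (by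
        rintro rfl; exact hc (by simp [← b1])), rE_rE]))
    exact fin j b hb b1 y (by rw [le_mul_apply, h' y hy, rE_of_perp y1, h y hy, y2])

theorem exists_ext (ht : 7 ≤ Fintype.card τ) {c : F} (hc : c ≠ 0) {g : V ≃ₗ[F] V} (hg : g ∈ H)
    (hg' : g ∉ dstab D) : ∃ H', OI Q D H' ∧ (∃ g ∈ H', g ∉ dstab D) ∧ (OM Q ≤ H' → OM Q ≤ H) ∧
      ∀ i, ∀ x ∈ D i, Q x ≠ 0 → (Q x = c ∨ rE Q x ∈ H) → rE Q x ∈ H' := by
  have hP : ¬ Part Q D H c := fun h => hg' (S.mem_of_part2 d h2 hG ht hc h hg)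
  simp only [Part, not_forall] at hP
  obtain ⟨h, hh, i, a, ha, a1, j, hj, hh'⟩ := hP
  have key : ∀ n ∈ H, ∀ j, n a ∈ D j → n ∈ extG Q H a := fun n hn j hj =>
    ⟨S.le hn, S.rE_mul d hj ha (by rw [S.le hn, a1]; exact hc) (S.le hn a), Or.inl hn⟩
  refine ⟨extG Q H a, oi_of S.nd S.five S.orth S.iso (fun n hn => ?_) fun _ h => h.1,
    ⟨h, key h hh j hj, hh'⟩, OM_le_of_extG S.nd S.five, fun l x hx x0 h1 => ?_⟩
  · obtain ⟨ρ, hρ, -⟩ := Dec.exists_perm hn.1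
    exact key n (S.ds hn) _ (hρ i a ha)
  · rcases h1 with h1 | h1
    · exact rE_mem_extG (S.rE_mul d hx ha x0 (h1.trans a1.symm))
    · exact key _ h1 i (stab_apply (rE_stab S.nd d S.orth hx i) ha)

theorem exists_full (ht : 7 ≤ Fintype.card τ) {g : V ≃ₗ[F] V} (hg : g ∈ H) (hg' : g ∉ dstab D) :
    ∃ H', OI Q D H' ∧ (∃ g ∈ H', g ∉ dstab D) ∧ (OM Q ≤ H' → OM Q ≤ H) ∧
      ∀ i, ∀ x ∈ D i, rE Q x ∈ H' := by
  obtain ⟨ν, ν0, hν⟩ : ∃ ν : F, ν ≠ 0 ∧ ∀ c, IsSquare c ∨ ∃ t, t ≠ 0 ∧ c = ν * t ^ 2 := by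
    by_cases h : ∃ ν : F, ¬ IsSquare ν
    · obtain ⟨ν, h⟩ := h
      exact ⟨ν, by rintro rfl; simp at h, fun c => or_iff_not_imp_left.2
        (exists_eq_mul_sq_of_not_isSquare h)⟩
    · push Not at h
      exact ⟨1, one_ne_zero, fun c => Or.inl (h c)⟩
  obtain ⟨H1, S1, ⟨g1, k1, k2⟩, k3, k4⟩ := S.exists_ext d h2 hG ht one_ne_zero hg hg'
  obtain ⟨H2, S2, l1, l3, l4⟩ := S1.exists_ext d h2 hG ht ν0 k1 k2
  refine ⟨H2, S2, l1, fun h => k3 (l3 h), fun i x hx => ?_⟩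
  by_cases x0 : Q x = 0
  · rw [rE, refl_of_eq_zero x0]; exact H2.one_mem
  rcases hν (Q x) with ⟨t, h⟩ | ⟨t, t0, h⟩
  · have t0 : t ≠ 0 := by rintro rfl; simp [x0] at h
    have e : Q (t⁻¹ • x) = 1 := by rw [Q_smul, h]; field_simp
    refine l4 i x hx x0 (Or.inr ?_)
    rw [← rE_smul (inv_ne_zero t0)]
    exact k4 i _ ((D i).smul_mem _ hx) (e ▸ one_ne_zero) (Or.inl e)
  · have e : Q (t⁻¹ • x) = ν := by rw [Q_smul, h]; field_simp
    rw [← rE_smul (inv_ne_zero t0)]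
    exact l4 i _ ((D i).smul_mem _ hx) (e ▸ ν0) (Or.inl e)

end OI

end Cfsg.Agent.H27
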