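import Cfsg.Agent.H27.OPlane

/-!
Arithmetic of non-degenerate planes over finite fields.
-/

set_option autoImplicit false
set_option linter.unusedSectionVars false
set_option linter.unusedSimpArgs false

namespace Cfsg.Agent.H27

open Module Cfsg.Geo QuadraticMap H11

variable {F V : Type*} [Field F] [AddCommGroup V] [Module F V] [FiniteDimensional F V]
variable {Q : QuadraticForm F V} {H : Subgroup (V ≃ₗ[F] V)}

theorem lin_root {b c : F} (h : b ≠ 0 ∨ c ≠ 0) : ∃ r, ∀ x, b * x + c = 0 → x = r :=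
  ⟨-c / b, fun x hx => by
    have hb : b ≠ 0 := by rintro rfl; simp at h hx; exact h hx
    field_simp; linear_combination hx⟩

theorem quad_roots {a b c : F} (h : a ≠ 0 ∨ b ≠ 0 ∨ c ≠ 0) :
    ∃ r s, ∀ x, a * x * x + b * x + c = 0 → x = r ∨ x = s := by
  by_cases ha : a = 0
  · obtain ⟨r, hr⟩ := lin_root (h.resolve_left fun h => h ha)
    exact ⟨r, r, fun x hx => Or.inl (hr x (by simpa [ha] using hx))⟩
  by_cases h1 : ∃ r, a * r * r + b * r + c = 0
  · obtain ⟨r, hr⟩ := h1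
    refine ⟨r, -b / a - r, fun x hx => or_iff_not_imp_left.2 fun h2 => ?_⟩
    have : a * (x + r) + b = 0 :=
      mul_left_cancel₀ (sub_ne_zero.2 h2) (by linear_combination hx - hr)
    field_simp; linear_combination this
  · exact ⟨0, 0, fun x hx => absurd ⟨x, hx⟩ h1⟩

theorem exists_inter {α : Type*} [DecidableEq α] {A B U : Finset α} (hA : A ⊆ U) (hB : B ⊆ U)
    (h : U.card < A.card + B.card) : ∃ x ∈ A, x ∈ B := by
  by_contra hc
  push Not at hc
  have := Finset.card_le_card (Finset.union_subset hA hB)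
  rw [Finset.card_union_of_disjoint (Finset.disjoint_left.2 hc)] at this
  omega

theorem span_plane {P : Submodule F V} (h2 : finrank F P ≤ 2) {x w : V} (hx : x ∈ P) (hw : w ∈ P)
    (x0 : x ≠ 0) (h : w ∉ Submodule.span F {x}) : ∀ z ∈ P, ∃ α β : F, z = α • x + β • w := by
  intro z hz
  have e : Submodule.span F {x} ⊔ Submodule.span F {w} = P :=
    Submodule.eq_of_le_of_finrank_le (sup_le ((Submodule.span_singleton_le_iff_mem _ _).2 hx)
      ((Submodule.span_singleton_le_iff_mem _ _).2 hw)) (by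
        rwa [Submodule.finrank_sup_span_singleton h, finrank_span_singleton x0])
  obtain ⟨_, h1, _, h2, rfl⟩ := Submodule.mem_sup.1 (e ▸ hz)
  obtain ⟨a, rfl⟩ := Submodule.mem_span_singleton.1 h1
  obtain ⟨b, rfl⟩ := Submodule.mem_span_singleton.1 h2
  exact ⟨a, b, rfl⟩

theorem NDon.disc {P : Submodule F V} (h : NDon Q P) (h2 : finrank F P = 2) {x : V} (hx : x ∈ P)
    (x0 : x ≠ 0) : ∃ w ∈ P, w ∉ Submodule.span F {x} ∧ pB Q w x ^ 2 - 4 * Q x * Q w ≠ 0 ∧
      (2 * Q x ≠ 0 ∨ pB Q w x ≠ 0) := by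
  obtain ⟨w, hw, h1⟩ := exists_not_mem_span_singleton h2.ge x
  have hs := span_plane h2.le hx hw x0 h1
  have h3 : 2 * Q x ≠ 0 ∨ pB Q w x ≠ 0 := by
    by_contra hc
    push Not at hc
    refine x0 (h x hx fun z hz => ?_)
    obtain ⟨α, β, rfl⟩ := hs z hz
    simp [pB_self, hc.1, pB_zero hc.2]
  refine ⟨w, hw, h1, fun h4 => ?_, h3⟩
  have h5 := h ((2 * Q x) • w - pB Q w x • x) (P.sub_mem (P.smul_mem _ hw) (P.smul_mem _ hx))
    fun z hz => by
      obtain ⟨α, β, rfl⟩ := hs z hz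
      simp only [map_add, map_sub, map_smul, LinearMap.sub_apply, LinearMap.smul_apply, pB_self,
        pB_comm x w, smul_eq_mul]
      linear_combination -β * h4
  by_cases h6 : 2 * Q x = 0
  · rw [h6, zero_smul, zero_sub, neg_eq_zero, smul_eq_zero] at h5
    exact h5.elim (h3.resolve_left fun h => h h6) x0
  · refine h1 ((Submodule.smul_mem_iff _ h6).1 ?_)
    rw [sub_eq_zero.1 h5]; exact Submodule.smul_mem _ _ (Submodule.mem_span_singleton_self x)

theorem add_smul_not_mem {x w : V} (h : w ∉ Submodule.span F {x}) (c : F) :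
    w + c • x ∉ Submodule.span F {x} := fun h1 => h (by
  simpa using Submodule.sub_mem _ h1
    (Submodule.smul_mem _ c (Submodule.mem_span_singleton_self x)))

theorem NDon.exists_good [Fintype F] {P : Submodule F V} (h : NDon Q P) (h2 : finrank F P = 2)
    {x : V} (hx : x ∈ P) (x0 : Q x ≠ 0) (κ : F) (hq : 5 < Fintype.card F ∨
      ((∀ z ∈ P, Q z = 0 → z = 0) ∧ (3 < Fintype.card F ∨ ((2 : F) = 0 ∧ κ = 0)))) :
    ∃ a ∈ P, Q a ≠ 0 ∧ pB Q a x ≠ 0 ∧ κ * Q a ≠ pB Q a x ^ 2 ∧ a ∉ Submodule.span F {x} := by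
  classical
  obtain ⟨w, hw, w1, w2, w3⟩ := h.disc h2 hx (by rintro rfl; simp at x0)
  obtain ⟨r1, r2, hr⟩ := quad_roots (b := pB Q w x) (c := Q w) (Or.inl x0)
  obtain ⟨r3, hr3⟩ := lin_root w3
  obtain ⟨r4, r5, hr4⟩ := quad_roots (a := κ * Q x - 4 * Q x ^ 2)
    (b := κ * pB Q w x - 4 * Q x * pB Q w x) (c := κ * Q w - pB Q w x ^ 2) (by
      by_contra hc
      push Not at hc
      have : κ = 4 * Q x := mul_right_cancel₀ x0 (by linear_combination hc.1)
      exact w2 (by rw [this] at hc; linear_combination -hc.2.2))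
  have e1 : ∀ t : F, Q (w + t • x) = Q x * t * t + pB Q w x * t + Q w := fun t => by
    simp only [Qadd, Q_smul, map_smul, smul_eq_mul]; ring
  have e2 : ∀ t : F, pB Q (w + t • x) x = 2 * Q x * t + pB Q w x := fun t => by
    simp only [map_add, map_smul, LinearMap.add_apply, LinearMap.smul_apply, pB_self, smul_eq_mul]
    ring
  have key : ∀ t : F, Q (w + t • x) ≠ 0 → t ≠ r3 → t ≠ r4 → t ≠ r5 → ∃ a ∈ P, Q a ≠ 0 ∧
      pB Q a x ≠ 0 ∧ κ * Q a ≠ pB Q a x ^ 2 ∧ a ∉ Submodule.span F {x} := fun t a b c d =>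
    ⟨_, P.add_mem hw (P.smul_mem t hx), a, fun h => b (hr3 t (e2 t ▸ h)), fun h => by
      rw [e1, e2] at h
      exact (hr4 t (by linear_combination h)).elim c d, add_smul_not_mem w1 t⟩
  rcases hq with hq | ⟨ha, hq⟩
  · obtain ⟨t, ht⟩ := exists_not_mem_list [r1, r2, r3, r4, r5] hq
    simp only [List.mem_cons, List.not_mem_nil, or_false, not_or] at ht
    exact key t (fun h => (hr t (e1 t ▸ h)).elim ht.1 ht.2.1) ht.2.2.1 ht.2.2.2.1 ht.2.2.2.2
  have h3 : ∀ t : F, Q (w + t • x) ≠ 0 := fun t h => add_smul_not_mem w1 t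
    (ha _ (P.add_mem hw (P.smul_mem t hx)) h ▸ Submodule.zero_mem _)
  rcases hq with hq | ⟨h4, rfl⟩
  · obtain ⟨t, ht⟩ := exists_not_mem_list [r3, r4, r5] hq
    simp only [List.mem_cons, List.not_mem_nil, or_false, not_or] at ht
    exact key t (h3 t) ht.1 ht.2.1 ht.2.2
  · have h5 := w3.resolve_left (by simp [h4])
    exact ⟨w, hw, by simpa using h3 0, h5, by simpa using (pow_ne_zero 2 h5).symm, w1⟩

theorem NDon.exists_T [Fintype F] {P : Submodule F V} (h : NDon Q P) (h2 : finrank F P = 2)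
    (ha : ∀ z ∈ P, Q z = 0 → z = 0) {x : V} (hx : x ∈ P) (x0 : x ≠ 0) :
    ∃ T : Finset F, Fintype.card F ≤ 2 * T.card ∧
      ∀ t ∈ T, t ≠ 0 ∧ ∃ a ∈ P, Q a ≠ 0 ∧ t * Q a = pB Q a x ^ 2 := by
  classical
  obtain ⟨w, hw, w1, w2, w3⟩ := h.disc h2 hx x0
  have x1 : Q x ≠ 0 := fun h => x0 (ha x hx h)
  have h3 : ∀ t : F, Q (w + t • x) ≠ 0 := fun t h => add_smul_not_mem w1 t
    (ha _ (P.add_mem hw (P.smul_mem t hx)) h ▸ Submodule.zero_mem _)
  have e1 : ∀ t : F, Q (w + t • x) = Q x * t * t + pB Q w x * t + Q w := fun t => by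
    simp only [Qadd, Q_smul, map_smul, smul_eq_mul]; ring
  have e2 : ∀ t : F, pB Q (w + t • x) x = 2 * Q x * t + pB Q w x := fun t => by
    simp only [map_add, map_smul, LinearMap.add_apply, LinearMap.smul_apply, pB_self, smul_eq_mul]
    ring
  let f : F → F := fun t =>
    if pB Q (w + t • x) x = 0 then 4 * Q x else pB Q (w + t • x) x ^ 2 / Q (w + t • x)
  refine ⟨Finset.univ.image f, Finset.card_le_mul_card_image _ 2 fun κ _ => ?_, fun κ hκ => ?_⟩
  · obtain ⟨r3, hr3⟩ := lin_root w3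
    by_cases hκ : κ = 4 * Q x
    · refine (Finset.card_le_card (t := {r3}) fun t ht => ?_).trans (by simp)
      have ht : f t = κ := by simpa using ht
      simp only [f] at ht
      split_ifs at ht with h4
      · simpa using hr3 t (e2 t ▸ h4)
      · rw [div_eq_iff (h3 t), e1, e2, hκ] at ht
        exact absurd (by linear_combination ht) w2
    · obtain ⟨r4, r5, hr4⟩ := quad_roots (a := κ * Q x - 4 * Q x ^ 2)
        (b := κ * pB Q w x - 4 * Q x * pB Q w x) (c := κ * Q w - pB Q w x ^ 2)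
        (Or.inl fun h => hκ (mul_right_cancel₀ x1 (by linear_combination h)))
      refine (Finset.card_le_card (t := {r4, r5}) fun t ht => ?_).trans Finset.card_le_two
      have ht : f t = κ := by simpa using ht
      simp only [f] at ht
      split_ifs at ht with h4
      · exact absurd ht.symm hκ
      · rw [div_eq_iff (h3 t), e1, e2] at ht
        simpa using hr4 t (by linear_combination -ht)
  · obtain ⟨t, -, rfl⟩ := Finset.mem_image.1 hκ
    simp only [f]
    split_ifs with h4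
    · have h5 : 2 * Q x ≠ 0 := fun h5 => by
        rw [e2, h5, zero_mul, zero_add] at h4
        simp [h4, h5] at w3
      exact ⟨fun h => mul_ne_zero (left_ne_zero_of_mul h5) h5 (by linear_combination h), x, hx,
        x1, by rw [pB_self]; ring⟩
    · exact ⟨div_ne_zero (pow_ne_zero 2 h4) (h3 t), _, P.add_mem hw (P.smul_mem t hx), h3 t,
        div_mul_cancel₀ _ (h3 t)⟩

theorem addSubgroup_eq_top [Fintype F] {K : AddSubgroup F} {T : Finset F}
    (hT : Fintype.card F ≤ 2 * T.card) {c : F} (hc : c ≠ 0) (h : ∀ t ∈ T, t ≠ 0 ∧ t * c ∈ K)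
    (s : F) : s ∈ K := by
  classical
  have h0 : (0 : F) ∉ T := fun h0 => (h 0 h0).1 rfl
  have h1 : ∀ t ∈ insert 0 T, t * c ∈ K := fun t ht => by
    rcases Finset.mem_insert.1 ht with rfl | ht
    · simp
    · exact (h t ht).2
  obtain ⟨x, hx, hx'⟩ := exists_inter (Finset.subset_univ (insert 0 T))
    (Finset.subset_univ ((insert 0 T).image fun t => s / c - t)) (by
      rw [Finset.card_image_of_injective _ sub_right_injective, Finset.card_insert_of_notMem h0,
        Finset.card_univ]; omega)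
  obtain ⟨t, ht, rfl⟩ := Finset.mem_image.1 hx'
  have := K.add_mem (h1 _ hx) (h1 t ht)
  rwa [← add_mul, sub_add_cancel, div_mul_cancel₀ _ hc] at this

theorem NDon.exists_hypbasis [Finite F] {P : Submodule F V} (h : NDon Q P) (h2 : finrank F P = 2)
    {z : V} (hz : z ∈ P) (z0 : z ≠ 0) (z1 : Q z = 0) {x : V} (hx : x ∈ P) (x0 : x ≠ 0) :
    ∃ f ∈ P, ∃ f' ∈ P, Q f = 0 ∧ Q f' = 0 ∧ pB Q f f' = 1 ∧
      ∃ α β : F, α ≠ 0 ∧ x = α • f + β • f' := by
  obtain ⟨z', hz', e1, e2⟩ := h.exists_partner hz z0 z1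
  obtain ⟨α, β, rfl⟩ := span_plane h2.le hz hz' z0 (fun h => by
    obtain ⟨c, rfl⟩ := Submodule.mem_span_singleton.1 h
    simp [pB_self, z1] at e2) x hx
  by_cases hα : α = 0
  · exact ⟨z', hz', z, hz, e1, z1, (pB_comm _ _).trans e2, β, α, by
      rintro rfl; simp [hα] at x0, add_comm _ _⟩
  · exact ⟨z, hz, z', hz', z1, e1, e2, α, β, hα, rfl⟩

theorem NDon.exists_shift [Finite F] {P : Submodule F V} (h : NDon Q P) (h2 : finrank F P = 2)
    {z : V} (hz : z ∈ P) (z0 : z ≠ 0) (z1 : Q z = 0) {x : V} (hx : x ∈ P) (x0 : x ≠ 0) (c : F) :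
    ∃ y ∈ P, y ≠ 0 ∧ Q y = c ∧ Q (x - y) = 0 := by
  obtain ⟨f, hf, f', hf', e1, e2, e3, α, β, hα, rfl⟩ := h.exists_hypbasis h2 hz z0 z1 hx x0
  refine ⟨α • f + (c / α) • f', P.add_mem (P.smul_mem _ hf) (P.smul_mem _ hf'), fun h => ?_, ?_, ?_⟩
  · have := congrArg (pB Q f') h
    simp [pB_self, e2, pB_comm f' f, e3, hα] at this
  · simp [Qadd, Q_smul, e1, e2, e3, div_mul_cancel₀ _ hα]
  · rw [add_sub_add_left_eq_sub, ← sub_smul, Q_smul, e2, mul_zero]

theorem NDon.exists_nonsing_ne [Finite F] {P : Submodule F V} (h : NDon Q P) {x : V} (hx : x ∈ P)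
    (x0 : x ≠ 0) (hG : Q x ≠ 0 → ∃ u ∈ P, pB Q x (rE Q u x) ≠ 0) :
    ∃ a ∈ P, Q a ≠ 0 ∧ pB Q a x ≠ 0 := by
  by_cases x1 : Q x = 0
  · obtain ⟨y, hy, e1, e2⟩ := h.exists_partner hx x0 x1
    exact ⟨x + y, P.add_mem hx hy, by simp [Qadd, x1, e1, e2],
      by simp [pB_self, x1, pB_comm y x, e2]⟩
  · obtain ⟨u, hu, h1⟩ := hG x1
    exact ⟨_, rE_mem_sub hu hx, by rwa [rE_mem u x], by rwa [pB_comm]⟩

/-- The additive group of the vectors `v` with `E(u, v) ∈ H`. -/
def LL [Finite F] (H : Subgroup (V ≃ₗ[F] V)) {u : V} (hu : Q u = 0) : AddSubgroup V where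
  carrier := {v | pB Q u v = 0 ∧ EE Q H u v}
  add_mem' ha hb := ⟨by rw [map_add, ha.1, hb.1, add_zero], EE.add hu ha.1 hb.1 ha.2 hb.2⟩
  zero_mem' := ⟨map_zero _, by simpa using ee_self hu 0⟩
  neg_mem' {v} hv := ⟨by simp [hv.1], Has.inv hv.2 fun x => by
    simp only [eF, map_add, map_sub, map_smul, map_neg, LinearMap.neg_apply, Qneg, hv.1,
      pB_zero hv.1, pB_self, hu, smul_eq_mul]
    module⟩

theorem ll_refl [Finite F] {u v a : V} {hu : Q u = 0} (hv : v ∈ LL H hu) (ha : rE Q a ∈ H)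
    (h : pB Q a u = 0) : rE Q a v ∈ LL H hu := by
  have := hv.2.conj ha (rE_mem a)
  rw [rE_of_perp h] at this
  exact ⟨by rw [← rE_of_perp h, OG_pB (rE_mem a), hv.1], this⟩

theorem ll_sub [Finite F] {u v a : V} {hu : Q u = 0} (hv : v ∈ LL H hu) (ha : rE Q a ∈ H)
    (h : pB Q a u = 0) : ((Q a)⁻¹ * pB Q a v) • a ∈ LL H hu := by
  have := (LL H hu).sub_mem hv (ll_refl hv ha h)
  rwa [rE_apply, sub_sub_cancel] at this

theorem rr_of_ll [Finite F] {u v : V} {hu : Q u = 0} (h : ∀ c : F, c • v ∈ LL H hu) :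
    v ∈ RR H hu := ⟨by simpa using (h 1).1, fun c => (h c).2⟩

end Cfsg.Agent.H27
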